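import Cfsg.Agent.S1978
import Cfsg.Agent.H33.KInfSub

set_option autoImplicit false

/-! The K-infinity subgroups are isomorphism-invariant `p`-group functors (helper2). -/

namespace Cfsg.Agent.H2

open Subgroup Cfsg Cfsg.Agent.H33

universe u

theorem isCharPFunctor_kInfLower (p : ℕ) [Fact p.Prime] :
    Cfsg.IsCharPFunctor.{u} p (fun Q _ => Cfsg.kInfLower Q) := by
  refine ⟨fun Q _ _ hQ hn h => ?_, fun Q R _ _ _ _ φ => kInfLower_equiv φ⟩
  have h1 := (Cfsg.Agent.S1978.result hQ).1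
  change Cfsg.kInfLower Q = ⊥ at h
  rw [h] at h1
  have h2 : (⊤ : Subgroup Q) ≤ ⊥ := by
    refine le_trans (fun x _ => ?_) h1
    rw [mem_centralizer_iff]
    intro y hy
    rw [SetLike.mem_coe, mem_bot] at hy
    rw [hy, one_mul, mul_one]
  exact top_ne_bot (le_bot_iff.1 h2)

theorem isCharPFunctor_kInfUpper (p : ℕ) [Fact p.Prime] :
    Cfsg.IsCharPFunctor.{u} p (fun Q _ => Cfsg.kInfUpper Q) := by
  refine ⟨fun Q _ _ hQ hn h => ?_, fun Q R _ _ _ _ φ => kInfUpper_equiv φ⟩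
  have h1 := (Cfsg.Agent.S1978.result hQ).2.2.1
  change Cfsg.kInfUpper Q = ⊥ at h
  rw [h] at h1
  have h2 : (⊤ : Subgroup Q) ≤ ⊥ := by
    refine le_trans (fun x _ => ?_) h1
    rw [mem_centralizer_iff]
    intro y hy
    rw [SetLike.mem_coe, mem_bot] at hy
    rw [hy, one_mul, mul_one]
  exact top_ne_bot (le_bot_iff.1 h2)

end Cfsg.Agent.H2
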