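import Cfsg.Agent.H2.FrX

/-!
# Extending isometries of `Fin 3 → F` to `ι → F` (helper2)
-/

set_option autoImplicit false
set_option linter.unusedSectionVars false
set_option linter.unusedVariables false

namespace Cfsg.Agent.SmallDim.Fr

open QuadraticMap Module Cfsg.Agent.Orth Cfsg.Agent.GeoMax.Ort
open Matrix

variable {F : Type*} [Field F] {ι : Type} [Fintype ι] [DecidableEq ι]

/-- a vector is the sum of its coordinates times frame vectors -/
theorem eq_sum_e (v : ι → F) : v = ∑ j, v j • (e j : ι → F) := by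
  ext k
  simp [e, Finset.sum_apply, Pi.single_apply]

/-- `Fix J g` and `v` vanishing on `J`: `g v = v` -/
theorem Fix.off {J : Finset ι} {g : OGrp (Q0 F ι)} (hg : Fix J g) {v : ι → F} (hv : ∀ j ∈ J, v j = 0) : g v = v := by
  conv_lhs => rw [eq_sum_e v]
  conv_rhs => rw [eq_sum_e v]
  have : g (∑ j, v j • (e j : ι → F)) = ∑ j, v j • g (e j) := by
    rw [show g (∑ j, v j • (e j : ι → F)) = ∑ j, g (v j • (e j : ι → F)) from map_sum (g : (ι → F) ≃ₗ[F] (ι → F)) _ _]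
    exact Finset.sum_congr rfl fun j _ => ap_smul g _ _
  rw [this]
  refine Finset.sum_congr rfl fun j _ => ?_
  by_cases hj : j ∈ J
  · rw [hv j hj, zero_smul, zero_smul]
  · rw [hg j hj]

/-- isometries with disjoint supports commute -/
theorem Fix.comm (h2 : (2 : F) ≠ 0) {J J' : Finset ι} (hJ : Disjoint J J') {g t : OGrp (Q0 F ι)} (hg : Fix J g)
    (ht : Fix J' t) : g * t = t * g := by
  refine ext_e fun i => ?_
  rw [mul_ap, mul_ap]
  by_cases hi : i ∈ J
  · have hi' : i ∉ J' := fun h => (Finset.disjoint_left.1 hJ hi h)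
    rw [ht i hi']
    symm
    refine ht.off fun j hj => ?_
    have hjJ : j ∉ J := fun h => Finset.disjoint_left.1 hJ h hj
    exact hg.supp h2 (v := e i) (fun k hk => by
      have : k ≠ i := fun h => hk (h ▸ hi)
      simp [e, this]) j hjJ
  · rw [hg i hi]
    refine hg.off fun j hj => ?_
    by_cases hi' : i ∈ J'
    · have hjJ : j ∉ J' := fun h => Finset.disjoint_left.1 hJ hj h
      exact ht.supp h2 (v := e i) (fun k hk => by
        have : k ≠ i := fun h => hk (h ▸ hi')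
        simp [e, this]) j hjJ
    · rw [ht i hi']
      have : j ≠ i := fun h => hi (h ▸ hj)
      simp [e, this]

variable (φ : Fin 3 ↪ ι)

/-- restriction -/
def rs : (ι → F) →ₗ[F] (Fin 3 → F) where
  toFun x a := x (φ a)
  map_add' x y := rfl
  map_smul' c x := rfl

/-- extension by zero -/
def ex : (Fin 3 → F) →ₗ[F] (ι → F) where
  toFun w j := ∑ a, if φ a = j then w a else 0
  map_add' x y := by
    funext j
    simp only [Pi.add_apply]
    rw [← Finset.sum_add_distrib]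
    refine Finset.sum_congr rfl fun a _ => ?_
    split_ifs <;> simp
  map_smul' c x := by
    funext j
    simp only [Pi.smul_apply, smul_eq_mul, RingHom.id_apply]
    rw [Finset.mul_sum]
    refine Finset.sum_congr rfl fun a _ => ?_
    split_ifs <;> simp

theorem rs_apply (x : ι → F) (a : Fin 3) : rs φ x a = x (φ a) := rfl

theorem ex_apply (w : Fin 3 → F) (b : Fin 3) : ex φ w (φ b) = w b := by
  change (∑ a, if φ a = φ b then w a else 0) = w b
  simp [φ.injective.eq_iff]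

theorem ex_of_not (w : Fin 3 → F) {j : ι} (hj : ∀ a, φ a ≠ j) : ex φ w j = 0 := by
  change (∑ a, if φ a = j then w a else 0) = 0
  exact Finset.sum_eq_zero fun a _ => if_neg (hj a)

theorem rs_ex (w : Fin 3 → F) : rs φ (ex φ w) = w := funext fun a => ex_apply φ w a

theorem ex_dot (w : Fin 3 → F) (x : ι → F) : (ex φ w) ⬝ᵥ x = w ⬝ᵥ (rs φ x) := by
  change (∑ j, (∑ a, if φ a = j then w a else 0) * x j) = ∑ a, w a * x (φ a)
  simp only [Finset.sum_mul]
  rw [Finset.sum_comm]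
  refine Finset.sum_congr rfl fun a _ => ?_
  simp

theorem dot_ex (w : Fin 3 → F) (x : ι → F) : x ⬝ᵥ (ex φ w) = (rs φ x) ⬝ᵥ w := by
  rw [dotProduct_comm, ex_dot, dotProduct_comm]

theorem ex_dot_ex (w w' : Fin 3 → F) : (ex φ w) ⬝ᵥ (ex φ w') = w ⬝ᵥ w' := by rw [ex_dot, rs_ex]

theorem ex_e (a : Fin 3) : ex φ (e a : Fin 3 → F) = e (φ a) := by
  funext j
  by_cases hj : ∃ b, φ b = j
  · obtain ⟨b, rfl⟩ := hj
    rw [ex_apply]
    by_cases hab : a = b
    · subst hab; simp [e]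
    · have : φ b ≠ φ a := fun h => hab (φ.injective h).symm
      simp [e, this, Ne.symm hab]
  · push Not at hj
    rw [ex_of_not φ _ hj]
    have : j ≠ φ a := (hj a).symm
    simp [e, this]

theorem ex_rs {x : ι → F} (hx : ∀ j, (∀ a, φ a ≠ j) → x j = 0) : ex φ (rs φ x) = x := by
  funext j
  by_cases hj : ∃ b, φ b = j
  · obtain ⟨b, rfl⟩ := hj
    rw [ex_apply, rs_apply]
  · push Not at hj
    rw [ex_of_not φ _ hj, hx j hj]

/-- the extended map -/
def exM (f : (Fin 3 → F) →ₗ[F] (Fin 3 → F)) : (ι → F) →ₗ[F] (ι → F) :=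
  LinearMap.id + (ex φ) ∘ₗ (f - LinearMap.id) ∘ₗ (rs φ)

theorem exM_apply (f : (Fin 3 → F) →ₗ[F] (Fin 3 → F)) (x : ι → F) :
    exM φ f x = x + ex φ (f (rs φ x) - rs φ x) := rfl

theorem rs_exM (f : (Fin 3 → F) →ₗ[F] (Fin 3 → F)) (x : ι → F) : rs φ (exM φ f x) = f (rs φ x) := by
  rw [exM_apply, map_add, rs_ex]; abel

theorem exM_exM (f f' : (Fin 3 → F) →ₗ[F] (Fin 3 → F)) (x : ι → F) :
    exM φ f (exM φ f' x) = exM φ (f ∘ₗ f') x := by
  rw [exM_apply, rs_exM, exM_apply, exM_apply, LinearMap.comp_apply, add_assoc, ← map_add]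
  congr 2
  abel

/-- extension of isometries -/
noncomputable def exG : OGrp (Q0 F (Fin 3)) →* OGrp (Q0 F ι) where
  toFun h := mkIsom (Q0 F ι) (exM φ ((h : (Fin 3 → F) ≃ₗ[F] (Fin 3 → F)) : (Fin 3 → F) →ₗ[F] (Fin 3 → F)))
    (exM φ (((h⁻¹ : OGrp (Q0 F (Fin 3))) : (Fin 3 → F) ≃ₗ[F] (Fin 3 → F)) : (Fin 3 → F) →ₗ[F] (Fin 3 → F)))
    (fun x => by
      rw [exM_exM, exM_apply]
      have : ∀ w : Fin 3 → F, (((h : (Fin 3 → F) ≃ₗ[F] (Fin 3 → F)) : (Fin 3 → F) →ₗ[F] (Fin 3 → F)) ∘ₗ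
        (((h⁻¹ : OGrp (Q0 F (Fin 3))) : (Fin 3 → F) ≃ₗ[F] (Fin 3 → F)) : (Fin 3 → F) →ₗ[F] (Fin 3 → F))) w = w :=
        fun w => ap_inv_self h w
      rw [this, sub_self, map_zero, add_zero])
    (fun x => by
      rw [exM_exM, exM_apply]
      have : ∀ w : Fin 3 → F, ((((h⁻¹ : OGrp (Q0 F (Fin 3))) : (Fin 3 → F) ≃ₗ[F] (Fin 3 → F)) : (Fin 3 → F) →ₗ[F] (Fin 3 → F)) ∘ₗ
        ((h : (Fin 3 → F) ≃ₗ[F] (Fin 3 → F)) : (Fin 3 → F) →ₗ[F] (Fin 3 → F))) w = w :=
        fun w => inv_ap_self h w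
      rw [this, sub_self, map_zero, add_zero])
    (fun x => by
      rw [exM_apply, Q0_apply, Q0_apply]
      have h1 : (h (rs φ x)) ⬝ᵥ (h (rs φ x)) = (rs φ x) ⬝ᵥ (rs φ x) := OGrp_self h _
      change (x + ex φ (h (rs φ x) - rs φ x)) ⬝ᵥ (x + ex φ (h (rs φ x) - rs φ x)) = _
      rw [add_dotProduct, dotProduct_add, dotProduct_add, ex_dot_ex, dot_ex, ex_dot, sub_dotProduct,
        sub_dotProduct, dotProduct_sub, dotProduct_sub, h1, dotProduct_comm (rs φ x) (h (rs φ x))]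
      ring)
  map_one' := by
    refine OGrp_ext fun x => ?_
    rw [mkIsom_apply, exM_apply]
    have : (((1 : OGrp (Q0 F (Fin 3))) : (Fin 3 → F) ≃ₗ[F] (Fin 3 → F)) : (Fin 3 → F) →ₗ[F] (Fin 3 → F)) (rs φ x) = rs φ x := rfl
    rw [this, sub_self, map_zero, add_zero]; rfl
  map_mul' h h' := by
    refine OGrp_ext fun x => ?_
    rw [mkIsom_apply, coe_mul_apply, mkIsom_apply, mkIsom_apply, exM_exM]
    rfl

theorem exG_ap (h : OGrp (Q0 F (Fin 3))) (x : ι → F) : exG φ h x = x + ex φ (h (rs φ x) - rs φ x) := rfl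

theorem exG_ex (h : OGrp (Q0 F (Fin 3))) (w : Fin 3 → F) : exG φ h (ex φ w) = ex φ (h w) := by
  rw [exG_ap, rs_ex, map_sub]; abel

theorem exG_e (h : OGrp (Q0 F (Fin 3))) (a : Fin 3) : exG φ h (e (φ a)) = ex φ (h (e a)) := by
  rw [← ex_e, exG_ex]

theorem exG_off (h : OGrp (Q0 F (Fin 3))) {x : ι → F} (hx : ∀ a, x (φ a) = 0) : exG φ h x = x := by
  have : rs φ x = 0 := funext hx
  rw [exG_ap, this, show (h (0 : Fin 3 → F)) = 0 from map_zero _, sub_zero, map_zero, add_zero]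

theorem exG_fix (h : OGrp (Q0 F (Fin 3))) : Fix (Finset.univ.map φ) (exG φ h) := by
  intro i hi
  refine exG_off φ h fun a => ?_
  have : φ a ≠ i := fun h => hi (h ▸ Finset.mem_map_of_mem φ (Finset.mem_univ a))
  simp [e, this]

theorem exG_rf (w : Fin 3 → F) : exG φ (rf w) = rf (ex φ w) := by
  by_cases hw : w ⬝ᵥ w ≠ 0
  · have hw' : (ex φ w) ⬝ᵥ (ex φ w) ≠ 0 := by rwa [ex_dot_ex]
    refine OGrp_ext fun x => ?_
    change exG φ (rf w) x = rf (ex φ w) x
    rw [exG_ap, rf_ap hw, rf_ap hw', ex_dot_ex, dot_ex, sub_sub_cancel_left, map_neg, map_smul, sub_eq_add_neg]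
  · have h0 : rf w = 1 := by unfold rf; rw [dif_neg (by rwa [Q0_apply])]
    have h1 : rf (ex φ w) = 1 := by unfold rf; rw [dif_neg (by rwa [Q0_apply, ex_dot_ex])]
    rw [h0, h1, map_one]

theorem exists_exG (h2 : (2 : F) ≠ 0) {g : OGrp (Q0 F ι)} (hg : Fix (Finset.univ.map φ) g) :
    ∃ h : OGrp (Q0 F (Fin 3)), exG φ h = g := by
  have hsup : ∀ {g : OGrp (Q0 F ι)}, Fix (Finset.univ.map φ) g → ∀ w, ex φ (rs φ (g (ex φ w))) = g (ex φ w) := by
    intro g hg w
    refine ex_rs φ fun j hj => ?_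
    refine hg.supp h2 (v := ex φ w) (fun i hi => ex_of_not φ w fun a ha => hi ?_) j ?_
    · rw [← ha]; exact Finset.mem_map_of_mem φ (Finset.mem_univ a)
    · intro hj'
      obtain ⟨a, -, ha⟩ := Finset.mem_map.1 hj'
      exact hj a ha
  let f : OGrp (Q0 F ι) → (Fin 3 → F) →ₗ[F] (Fin 3 → F) := fun g =>
    (rs φ) ∘ₗ ((g : (ι → F) ≃ₗ[F] (ι → F)) : (ι → F) →ₗ[F] (ι → F)) ∘ₗ (ex φ)
  have hf : ∀ g w, f g w = rs φ (g (ex φ w)) := fun g w => rfl
  let h : OGrp (Q0 F (Fin 3)) := mkIsom (Q0 F (Fin 3)) (f g) (f g⁻¹)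
    (fun w => by rw [hf, hf, hsup hg.inv, ap_inv_self, rs_ex])
    (fun w => by rw [hf, hf, hsup hg, inv_ap_self, rs_ex])
    (fun w => by
      rw [Q0_apply, Q0_apply, ← ex_dot_ex φ (f g w) (f g w), hf, hsup hg, OGrp_self, ex_dot_ex])
  have hh : ∀ w, h w = rs φ (g (ex φ w)) := fun w => rfl
  refine ⟨h, ext_e fun i => ?_⟩
  by_cases hi : ∃ a, φ a = i
  · obtain ⟨a, rfl⟩ := hi
    rw [exG_e, hh, hsup hg, ex_e]
  · push Not at hi
    have hi' : i ∉ Finset.univ.map φ := by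
      intro hj'
      obtain ⟨a, -, ha⟩ := Finset.mem_map.1 hj'
      exact hi a ha
    rw [hg i hi', exG_fix φ h i hi']

theorem Mon_exG {h : OGrp (Q0 F (Fin 3))} (hh : Mon h) : Mon (exG φ h) := by
  intro i
  by_cases hi : ∃ a, φ a = i
  · obtain ⟨a, rfl⟩ := hi
    obtain ⟨b, hb⟩ := hh a
    refine ⟨φ b, ?_⟩
    rw [exG_e]
    rcases hb with hb | hb
    · left; rw [hb, ex_e]
    · right; rw [hb, map_neg, ex_e]
  · push Not at hi
    refine ⟨i, Or.inl (exG_fix φ h i ?_)⟩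
    intro hj'
    obtain ⟨a, -, ha⟩ := Finset.mem_map.1 hj'
    exact hi a ha

/-! ### the twisting group on two coordinates -/

theorem rf_e_ne {i j : ι} (hij : i ≠ j) : (rf (e j) : OGrp (Q0 F ι)) (e i) = e i :=
  rf_e_of_zero (by simp [e, Ne.symm hij])

theorem tsq (h2 : (2 : F) ≠ 0) {a b : ι} (hab : a ≠ b) {t : OGrp (Q0 F ι)} (hm : Mon t) (hf : Fix {a, b} t) :
    t * t = 1 ∨ t * t = rf (e a) * rf (e b) := by
  have hoff : ∀ i, i ≠ a → i ≠ b → t (e i) = e i := fun i h1 h3 => hf i (by simp [h1, h3])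
  have key : ∀ i, i = a ∨ i = b → (t (e i) = e a ∨ t (e i) = -e a) ∨ (t (e i) = e b ∨ t (e i) = -e b) := by
    intro i hi
    obtain ⟨j, hj⟩ := hm i
    have hjm : j = a ∨ j = b := by
      by_contra hcon
      push Not at hcon
      have h3 : (t (e i)) j = 0 := by
        refine hf.supp h2 (v := e i) (fun k hk => ?_) j (by simp [hcon.1, hcon.2])
        have : k ≠ i := by
          rintro rfl
          apply hk
          rcases hi with rfl | rfl <;> simp
        simp [e, this]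
      rcases hj with hj | hj <;> rw [hj] at h3 <;> simp [e] at h3
    rcases hjm with rfl | rfl
    · exact Or.inl hj
    · exact Or.inr hj
  have hrf : ∀ i, i ≠ a → i ≠ b → (rf (e a) * rf (e b) : OGrp (Q0 F ι)) (e i) = e i := by
    intro i h1 h3
    rw [mul_ap, rf_e_ne h3, rf_e_ne h1]
  have hra : (rf (e a) * rf (e b) : OGrp (Q0 F ι)) (e a) = -e a := by
    rw [mul_ap, rf_e_ne hab, rf_e_self]
  have hrb : (rf (e a) * rf (e b) : OGrp (Q0 F ι)) (e b) = -e b := by
    rw [mul_ap, rf_e_self, ap_neg, rf_e_ne hab.symm]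
  have hne : ∀ {g g' : OGrp (Q0 F ι)}, g (e a) = g' (e a) → g (e b) = g' (e b) →
      (∀ i, i ≠ a → i ≠ b → g (e i) = g' (e i)) → g = g' := by
    intro g g' h1 h3 h4
    refine ext_e fun i => ?_
    by_cases hia : i = a
    · rw [hia, h1]
    · by_cases hib : i = b
      · rw [hib, h3]
      · exact h4 i hia hib
  rcases key a (Or.inl rfl) with ha | ha
  · rcases key b (Or.inr rfl) with hb | hb
    · exact absurd (Mon.inj h2 ha hb) hab
    · left
      refine hne ?_ ?_ fun i h1 h3 => by rw [mul_ap, hoff i h1 h3, hoff i h1 h3]; rfl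
      · rcases ha with ha | ha <;> simp only [mul_ap, ha, ap_neg, neg_neg, one_ap]
      · rcases hb with hb | hb <;> simp only [mul_ap, hb, ap_neg, neg_neg, one_ap]
  · rcases key b (Or.inr rfl) with hb | hb
    · rcases ha with ha | ha <;> rcases hb with hb | hb
      · left
        refine hne ?_ ?_ fun i h1 h3 => by rw [mul_ap, hoff i h1 h3, hoff i h1 h3]; rfl
        · simp only [mul_ap, ha, hb, ap_neg, neg_neg, one_ap]
        · simp only [mul_ap, ha, hb, ap_neg, neg_neg, one_ap]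
      · right
        refine hne ?_ ?_ fun i h1 h3 => by rw [mul_ap, hoff i h1 h3, hoff i h1 h3, hrf i h1 h3]
        · rw [mul_ap, ha, hb, hra]
        · rw [mul_ap, hb, ap_neg, ha, hrb]
      · right
        refine hne ?_ ?_ fun i h1 h3 => by rw [mul_ap, hoff i h1 h3, hoff i h1 h3, hrf i h1 h3]
        · rw [mul_ap, ha, ap_neg, hb, hra]
        · rw [mul_ap, hb, ha, hrb]
      · left
        refine hne ?_ ?_ fun i h1 h3 => by rw [mul_ap, hoff i h1 h3, hoff i h1 h3]; rfl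
        · simp only [mul_ap, ha, hb, ap_neg, neg_neg, one_ap]
        · simp only [mul_ap, ha, hb, ap_neg, neg_neg, one_ap]
    · exact absurd (Mon.inj h2 ha hb) hab

/-- the rotations of `Fin 3 → F` which lie in `M` after a twist by a monomial isometry of two other coordinates -/
noncomputable def GE (h2 : (2 : F) ≠ 0) (M : Subgroup (OGrp (Q0 F ι))) {a b : ι} (hd : Disjoint (Finset.univ.map φ) {a, b}) :
    Subgroup (OGrp (Q0 F (Fin 3))) where
  carrier := {h | dt h = 1 ∧ ∃ t : OGrp (Q0 F ι), Mon t ∧ Fix {a, b} t ∧ exG φ h * t ∈ M}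
  mul_mem' := by
    rintro g h ⟨hg, t, hm, hf, ht⟩ ⟨hh, t', hm', hf', ht'⟩
    refine ⟨by rw [dt_mul, hg, hh, one_mul], t * t', hm.mul hm', hf.mul hf', ?_⟩
    have h3 : exG φ h * t = t * exG φ h := Fix.comm h2 hd (exG_fix φ h) hf
    have h4 : exG φ (g * h) * (t * t') = (exG φ g * t) * (exG φ h * t') := by
      rw [map_mul]
      calc exG φ g * exG φ h * (t * t') = exG φ g * (exG φ h * t) * t' := by group
        _ = exG φ g * t * (exG φ h * t') := by rw [h3]; group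
    rw [h4]
    exact M.mul_mem ht ht'
  one_mem' := ⟨dt_one, 1, Mon.one, Fix.one _, by rw [map_one, one_mul]; exact M.one_mem⟩
  inv_mem' := by
    rintro g ⟨hg, t, hm, hf, ht⟩
    refine ⟨dt_inv hg, t⁻¹, hm.inv h2, hf.inv, ?_⟩
    have h3 : exG φ g⁻¹ * t⁻¹ = t⁻¹ * exG φ g⁻¹ := Fix.comm h2 hd (exG_fix φ _) hf.inv
    rw [h3, map_inv, ← _root_.mul_inv_rev]
    exact M.inv_mem ht

end Cfsg.Agent.SmallDim.Fr
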