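import Cfsg.Agent.H2.FrE2a
import Cfsg.Agent.Orth.Homs

/-!
# Frame theorem, three-dimensional supports (helper2)
-/

set_option autoImplicit false
set_option linter.unusedSectionVars false
set_option linter.unusedVariables false

namespace Cfsg.Agent.SmallDim.Fr

open QuadraticMap Module Cfsg.Agent.Orth Cfsg.Agent.GeoMax.Ort
open Matrix

variable {F : Type*} [Field F]

/-! ### arithmetic -/

theorem exists_natCast [Fintype F] (hp : (Fintype.card F).Prime) (x : F) : ∃ n : ℕ, (n : F) = x := by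
  classical
  haveI : Fact (Fintype.card F).Prime := ⟨hp⟩
  haveI : CharP F (Fintype.card F) := charP_of_card_eq_prime rfl
  haveI : NeZero (Fintype.card F) := ⟨hp.ne_zero⟩
  let f := ZMod.castHom (dvd_refl (Fintype.card F)) F
  have hinj : Function.Injective f := RingHom.injective f
  have hbij : Function.Bijective f := (Fintype.bijective_iff_injective_and_card f).2 ⟨hinj, ZMod.card _⟩
  obtain ⟨z, hz⟩ := hbij.2 x
  refine ⟨z.val, ?_⟩
  rw [← hz]
  have : f z = ((z.val : ℕ) : F) := by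
    conv_lhs => rw [← ZMod.natCast_zmod_val z]
    exact map_natCast f _
  exact this.symm

theorem exists_even [Fintype F] (h2 : (2 : F) ≠ 0) (hp : (Fintype.card F).Prime) (x : F) :
    ∃ n : ℕ, ((2 * n : ℕ) : F) = x := by
  obtain ⟨n, hn⟩ := exists_natCast hp (x / 2)
  refine ⟨n, ?_⟩
  push_cast
  rw [hn, mul_div_cancel₀ _ h2]

theorem exists_sq_add [Fintype F] (h2 : (2 : F) ≠ 0) (h3 : (3 : F) ≠ 0) (h5 : (5 : F) ≠ 0) {s : F} (hs : s ≠ 0) :
    ∃ a b : F, a ≠ 0 ∧ b ≠ 0 ∧ a ^ 2 + b ^ 2 = s := by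
  by_cases h : IsSquare s
  · obtain ⟨t, rfl⟩ := h
    have ht : t ≠ 0 := fun h => hs (by rw [h, mul_zero])
    have h4 : (4 : F) ≠ 0 := by
      have : (4 : F) = 2 * 2 := by norm_num
      rw [this]; exact mul_ne_zero h2 h2
    refine ⟨3 * t / 5, 4 * t / 5, div_ne_zero (mul_ne_zero h3 ht) h5, div_ne_zero (mul_ne_zero h4 ht) h5, ?_⟩
    field_simp
    norm_num
  · obtain ⟨x, y, hxy⟩ := exists_sum_sq (F := F) (a := 1) (b := 1) one_ne_zero one_ne_zero s
    refine ⟨x, y, ?_, ?_, ?_⟩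
    · rintro rfl
      exact h ⟨y, by rw [← hxy]; ring⟩
    · rintro rfl
      exact h ⟨x, by rw [← hxy]; ring⟩
    · rw [← hxy]; ring

theorem exists_kl [Fintype F] (h2 : (2 : F) ≠ 0) (h3 : (3 : F) ≠ 0) (h5 : (5 : F) ≠ 0) (hp : (Fintype.card F).Prime)
    {c : F} (hc : c ≠ 0) : ∃ m n : ℕ, ((2 * m : ℕ) : F) ≠ 0 ∧ ((2 * n : ℕ) : F) ≠ 0 ∧
      (1 + ((2 * m : ℕ) : F) ^ 2 * c) * (1 + ((2 * n : ℕ) : F) ^ 2 * c) = 1 := by
  obtain ⟨a, b, ha, hb, hab⟩ := exists_sq_add h2 h3 h5 (neg_ne_zero.2 hc)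
  obtain ⟨m, hm⟩ := exists_even h2 hp (a⁻¹)
  obtain ⟨n, hn⟩ := exists_even h2 hp (b⁻¹)
  refine ⟨m, n, by rw [hm]; exact inv_ne_zero ha, by rw [hn]; exact inv_ne_zero hb, ?_⟩
  rw [hm, hn]
  have : c = -(a ^ 2 + b ^ 2) := by rw [hab, neg_neg]
  rw [this]
  field_simp
  ring

/-! ### the case of small primes -/

variable {ι : Type} [Fintype ι] [DecidableEq ι]

theorem Base.rf_mem {M : Subgroup (OGrp (Q0 F ι))} (hM : Base M) {g : OGrp (Q0 F ι)} (hg : g ∈ M) (a : ι) {b : ι}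
    (hb : g (e b) = e b) : rf (g (e a)) * rf (e b) ∈ M := by
  have h1 : g * (rf (e a) * rf (e b)) * g⁻¹ ∈ M := M.mul_mem (M.mul_mem hg (hM.ee a b)) (M.inv_mem hg)
  have h3 : g * (rf (e a) * rf (e b)) * g⁻¹ = (g * rf (e a) * g⁻¹) * (g * rf (e b) * g⁻¹) := by group
  rwa [h3, rf_conj, rf_conj, hb] at h1

theorem light_one {M : Subgroup (OGrp (Q0 F ι))} (hM : Base M) (φ : Fin 3 ↪ ι) {b0 : ι} (hb0 : ∀ a, φ a ≠ b0)
    {h : OGrp (Q0 F (Fin 3))} (hh : exG φ h ∈ M) {a b : Fin 3} (h1 : h (e a) ≠ e b) (h1' : h (e a) ≠ -e b)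
    (hb : (h (e a)) b = 1 ∨ (h (e a)) b = -1) : Light M := by
  have h2 := hM.two
  have hww : (h (e a)) ⬝ᵥ (h (e a)) = 1 := by rw [OGrp_self, e_dot_e_self]
  -- the signed vector
  obtain ⟨w, hw1, hwb, hwe, hwr⟩ : ∃ w : Fin 3 → F, w ⬝ᵥ w = 1 ∧ w b = 1 ∧ w ≠ e b ∧ rf (ex φ w) = rf (ex φ (h (e a))) := by
    rcases hb with hb | hb
    · exact ⟨h (e a), hww, hb, h1, rfl⟩
    · refine ⟨-(h (e a)), ?_, ?_, ?_, ?_⟩
      · rw [neg_dotProduct_neg, hww]
      · rw [Pi.neg_apply, hb, neg_neg]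
      · intro h3; exact h1' (by rw [← h3, neg_neg])
      · rw [map_neg, rf_neg]
  have hb0' : exG φ h (e b0) = e b0 := exG_off φ h fun c => by simp [e, hb0 c]
  refine ⟨φ b, (Finset.univ.map φ).erase (φ b), ex φ (w - e b), Finset.notMem_erase _ _, ?_, ?_, ?_, ?_, ?_⟩
  · have := Finset.card_erase_le (s := Finset.univ.map φ) (a := φ b)
    rw [Finset.card_map, Finset.card_univ, Fintype.card_fin] at this
    omega
  · intro i hi
    by_cases hi' : ∃ c, φ c = i
    · obtain ⟨c, rfl⟩ := hi'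
      rw [Finset.mem_erase, not_and_or] at hi
      rcases hi with hi | hi
      · have hcb : φ c = φ b := not_ne_iff.1 hi
        rw [hcb, ex_apply]
        simp [e, hwb]
      · exact absurd (Finset.mem_map_of_mem φ (Finset.mem_univ c)) hi
    · push Not at hi'
      exact ex_of_not φ _ hi'
  · intro h3
    have h4 := congrArg (rs φ) h3
    rw [rs_ex, map_zero, sub_eq_zero] at h4
    exact hwe h4
  · rw [ex_dot_ex, sub_dotProduct, dotProduct_sub, dotProduct_sub, hw1, dot_e, e_dot, hwb, e_dot_e_self]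
    ring
  · have h3 : e (φ b) + ex φ (w - e b) = ex φ w := by rw [map_sub, ex_e]; abel
    rw [h3, hwr, ← exG_e]
    have h4 : rf (exG φ h (e (φ a))) * rf (e b0) ∈ M := hM.rf_mem hh (φ a) hb0'
    have h5 : rf (e (φ b)) * rf (exG φ h (e (φ a))) =
        (rf (e (φ b)) * rf (e b0)) * (rf (exG φ h (e (φ a))) * rf (e b0))⁻¹ := by
      rw [_root_.mul_inv_rev, rf_inv, rf_inv, mul_assoc, ← mul_assoc (rf (e b0)), rf_mul_self, one_mul]
    rw [h5]
    exact M.mul_mem (hM.ee _ _) (M.inv_mem h4)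

theorem exists_coord_small [Fintype F] (hp : Fintype.card F = 3 ∨ Fintype.card F = 5) {w : Fin 3 → F}
    (hw : w ⬝ᵥ w = 1) : ∃ b, w b = 1 ∨ w b = -1 := by
  by_contra hcon
  push Not at hcon
  have h1 : ∀ b, w b * w b ≠ 1 := fun b h => by
    rcases mul_self_eq_one_iff.1 h with h | h
    · exact (hcon b).1 h
    · exact (hcon b).2 h
  simp only [dotProduct, Fin.sum_univ_three] at hw
  rcases hp with hp | hp
  · have h3 : ∀ x : F, x * x ≠ 1 → x * x = 0 := by
      intro x hx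
      have h4 := FiniteField.pow_card x
      rw [hp] at h4
      have h5 : x * (x * x - 1) = 0 := by linear_combination h4
      rcases mul_eq_zero.1 h5 with h6 | h6
      · rw [h6, mul_zero]
      · exact absurd (sub_eq_zero.1 h6) hx
    rw [h3 _ (h1 0), h3 _ (h1 1), h3 _ (h1 2)] at hw
    simp at hw
  · haveI : Fact (Nat.Prime 5) := ⟨by norm_num⟩
    haveI : CharP F 5 := charP_of_card_eq_prime hp
    have h3 : ∀ x : F, x * x ≠ 1 → x * x = 0 ∨ x * x = -1 := by
      intro x hx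
      have h4 := FiniteField.pow_card x
      rw [hp] at h4
      have h5 : x * ((x * x - 1) * (x * x + 1)) = 0 := by linear_combination h4
      rcases mul_eq_zero.1 h5 with h6 | h6
      · left; rw [h6, mul_zero]
      · rcases mul_eq_zero.1 h6 with h6 | h6
        · exact absurd (sub_eq_zero.1 h6) hx
        · right; exact eq_neg_of_add_eq_zero_left h6
    have hn : ∀ n : ℕ, 0 < n → n < 5 → (n : F) ≠ 0 := by
      intro n hn0 hn5 hcon
      rw [CharP.cast_eq_zero_iff F 5] at hcon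
      exact absurd (Nat.le_of_dvd hn0 hcon) (by omega)
    have a1 := hn 1 (by norm_num) (by norm_num)
    have a2 := hn 2 (by norm_num) (by norm_num)
    have a3 := hn 3 (by norm_num) (by norm_num)
    have a4 := hn 4 (by norm_num) (by norm_num)
    push_cast at a1 a2 a3 a4
    rcases h3 _ (h1 0) with b1 | b1 <;> rcases h3 _ (h1 1) with b3 | b3 <;> rcases h3 _ (h1 2) with b4 | b4 <;>
      rw [b1, b3, b4] at hw
    · exact a1 (by linear_combination -hw)
    · exact a2 (by linear_combination -hw)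
    · exact a2 (by linear_combination -hw)
    · exact a3 (by linear_combination -hw)
    · exact a2 (by linear_combination -hw)
    · exact a3 (by linear_combination -hw)
    · exact a3 (by linear_combination -hw)
    · exact a4 (by linear_combination -hw)

end Cfsg.Agent.SmallDim.Fr
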