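import Cfsg.Agent.H2.FrE2c
import Cfsg.Agent.H6.FrM

/-!
# Frame theorem, three-dimensional supports, at least six coordinates (helper2)
-/

set_option autoImplicit false
set_option linter.unusedSectionVars false
set_option linter.unusedVariables false

namespace Cfsg.Agent.SmallDim.Fr

open QuadraticMap Module Cfsg.Agent.Orth Cfsg.Agent.GeoMax.Ort
open Matrix

variable {F : Type*} [Field F] {ι : Type} [Fintype ι] [DecidableEq ι]

/-- piece (E) assuming the three-dimensional statement (E1) -/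
theorem light_of_three_aux6 [Fintype F] (hp : (Fintype.card F).Prime) (hn : 6 ≤ Fintype.card ι)
    (E1 : (3 : F) ≠ 0 → ∀ G : Subgroup (OGrp (Q0 F (Fin 3))), (∀ g ∈ G, dt g = 1) →
      (∀ i j : Fin 3, i ≠ j → rf (e i) * rf (e i - e j) ∈ G) →
      (∀ g ∈ G, g ≠ 1 → ∀ v : Fin 3 → F, v ≠ 0 → v ⬝ᵥ v = 0 → g v ≠ v) → ∀ g ∈ G, Mon g)
    {M : Subgroup (OGrp (Q0 F ι))} (hM : Base M) (J : Finset ι) (hJ : J.card = 3)
    (hex : ∃ g ∈ M, Fix J g ∧ ¬ Mon g) : Light M := by
  classical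
  have h2 := hM.two
  -- an embedding with image `J`
  obtain ⟨φ, hφ⟩ : ∃ φ : Fin 3 ↪ ι, Finset.univ.map φ = J := by
    refine ⟨((Finset.equivFinOfCardEq hJ).symm.toEmbedding).trans (Function.Embedding.subtype _), ?_⟩
    ext x
    constructor
    · intro hx
      obtain ⟨a, -, ha⟩ := Finset.mem_map.1 hx
      rw [← ha]
      exact ((Finset.equivFinOfCardEq hJ).symm a).2
    · intro hx
      refine Finset.mem_map.2 ⟨Finset.equivFinOfCardEq hJ ⟨x, hx⟩, Finset.mem_univ _, ?_⟩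
      simp
  subst hφ
  obtain ⟨a4, ha4⟩ : ∃ a4, a4 ∉ Finset.univ.map φ := by
    by_contra hcon
    push Not at hcon
    have := Finset.card_le_card (fun x _ => hcon x : (Finset.univ : Finset ι) ⊆ Finset.univ.map φ)
    rw [Finset.card_univ, hJ] at this
    omega
  obtain ⟨a5, ha5⟩ : ∃ a5, a5 ∉ insert a4 (Finset.univ.map φ) := by
    by_contra hcon
    push Not at hcon
    have := Finset.card_le_card (fun x _ => hcon x : (Finset.univ : Finset ι) ⊆ insert a4 (Finset.univ.map φ))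
    have h3 := Finset.card_insert_le a4 (Finset.univ.map φ)
    rw [Finset.card_univ] at this
    omega
  obtain ⟨b0, hb0⟩ : ∃ b0, b0 ∉ insert a5 (insert a4 (Finset.univ.map φ)) := by
    by_contra hcon
    push Not at hcon
    have := Finset.card_le_card (fun x _ => hcon x : (Finset.univ : Finset ι) ⊆ insert a5 (insert a4 (Finset.univ.map φ)))
    have h3 := Finset.card_insert_le a4 (Finset.univ.map φ)
    have h4 := Finset.card_insert_le a5 (insert a4 (Finset.univ.map φ))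
    rw [Finset.card_univ] at this
    omega
  rw [Finset.mem_insert, not_or] at ha5
  rw [Finset.mem_insert, Finset.mem_insert, not_or, not_or] at hb0
  have off : ∀ {b : ι}, b ∉ Finset.univ.map φ → ∀ a, φ a ≠ b := fun hb a h =>
    hb (h ▸ Finset.mem_map_of_mem φ (Finset.mem_univ a))
  have h45 : a4 ≠ a5 := fun h => ha5.1 h.symm
  have hd : Disjoint (Finset.univ.map φ) {a4, a5} := by
    rw [Finset.disjoint_right]
    intro x hx
    rcases Finset.mem_insert.1 hx with rfl | hx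
    · exact ha4
    · rw [Finset.mem_singleton.1 hx]; exact ha5.2
  obtain ⟨g0, hg0M, hg0J, hg0⟩ := hex
  obtain ⟨h0, rfl⟩ := exists_exG φ h2 hg0J
  have hh0 : ¬ Mon h0 := fun h => hg0 (Mon_exG φ h)
  -- small primes
  by_cases hsmall : Fintype.card F = 3 ∨ Fintype.card F = 5
  · obtain ⟨a, ha⟩ : ∃ a, ∀ b, ¬ (h0 (e a) = e b ∨ h0 (e a) = -e b) := by
      by_contra hcon
      push Not at hcon
      exact hh0 hcon
    have hww : (h0 (e a)) ⬝ᵥ (h0 (e a)) = 1 := by rw [OGrp_self, e_dot_e_self]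
    obtain ⟨b, hb⟩ := exists_coord_small hsmall hww
    have hab := ha b
    rw [not_or] at hab
    exact light_one hM φ (off hb0.2.2) hg0M hab.1 hab.2 hb
  push Not at hsmall
  -- 3 and 5 are nonzero
  haveI : Fact (Fintype.card F).Prime := ⟨hp⟩
  haveI : CharP F (Fintype.card F) := charP_of_card_eq_prime rfl
  have hne : ∀ q : ℕ, q.Prime → Fintype.card F ≠ q → (q : F) ≠ 0 := by
    intro q hq hne h3
    rw [CharP.cast_eq_zero_iff F (Fintype.card F)] at h3
    exact hne ((Nat.prime_dvd_prime_iff_eq hp hq).1 h3)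
  have h3 : (3 : F) ≠ 0 := by exact_mod_cast hne 3 (by norm_num) hsmall.1
  have h5 : (5 : F) ≠ 0 := by exact_mod_cast hne 5 (by norm_num) hsmall.2
  -- the rotation group
  set G := GE φ h2 M hd with hG
  have hh4 : ∀ i j : Fin 3, i ≠ j → rf (e i) * rf (e i - e j) ∈ G := by
    intro i j hij
    have hi0 : (e i : Fin 3 → F) ⬝ᵥ e i ≠ 0 := by rw [e_dot_e_self]; exact one_ne_zero
    have hij0 : (e i - e j : Fin 3 → F) ⬝ᵥ (e i - e j) ≠ 0 := by rw [sub_e_self hij]; exact h2
    refine ⟨by rw [dt_mul, dt_rf hi0, dt_rf hij0]; ring, rf (e a4) * rf (e a4 - e a5),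
      (Mon_rf_e a4).mul (Mon_rf_swap h2 h45), ?_, ?_⟩
    · refine (Fix_rf ?_).mul (Fix_rf ?_) <;> intro b hb <;>
        simp only [Finset.mem_insert, Finset.mem_singleton, not_or] at hb
      · simp [e, hb.1]
      · simp [e, hb.1, hb.2]
    · have hφij : φ i ≠ φ j := fun h => hij (φ.injective h)
      rw [map_mul, exG_rf, exG_rf, map_sub, ex_e, ex_e]
      have hc : rf (e (φ i) - e (φ j)) * rf (e a4) = (rf (e a4) * rf (e (φ i) - e (φ j)) : OGrp (Q0 F ι)) := by
        refine Fix.comm h2 hd (Fix_rf fun b hb => ?_) (Fix_rf fun b hb => ?_)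
        · simp [e, (off hb i).symm, (off hb j).symm]
        · simp only [Finset.mem_insert, Finset.mem_singleton, not_or] at hb
          simp [e, hb.1]
      rw [comm_aux4 hc]
      exact M.mul_mem (hM.ee _ _) (hM.dd _ _ (Rt_sub hφij) (Rt_sub h45))
  -- a rotation which is not monomial
  obtain ⟨h1, hh1G, hh1⟩ : ∃ h1 ∈ G, ¬ Mon h1 := by
    rcases dt_pm h2 h0 with hdt | hdt
    · exact ⟨h0, ⟨hdt, 1, Mon.one, Fix.one _, by rw [mul_one]; exact hg0M⟩, hh0⟩
    · set n3 : OGrp (Q0 F (Fin 3)) := rf (e 0) * rf (e 1) * rf (e 2) with hn3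
      have hee : ∀ i : Fin 3, (e i : Fin 3 → F) ⬝ᵥ e i ≠ 0 := fun i => by rw [e_dot_e_self]; exact one_ne_zero
      have hdn : dt n3 = -1 := by
        rw [hn3, dt_mul, dt_mul, dt_rf (hee 0), dt_rf (hee 1), dt_rf (hee 2)]; ring
      have hMn : Mon n3 := ((Mon_rf_e 0).mul (Mon_rf_e 1)).mul (Mon_rf_e 2)
      refine ⟨h0 * n3, ⟨by rw [dt_mul, hdt, hdn]; ring, rf (e a4), Mon_rf_e a4, ?_, ?_⟩, ?_⟩
      · refine Fix_rf fun b hb => ?_
        simp only [Finset.mem_insert, Finset.mem_singleton, not_or] at hb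
        simp [e, hb.1]
      · rw [map_mul, hn3, map_mul, map_mul, exG_rf, exG_rf, exG_rf, ex_e, ex_e, ex_e, mul_assoc, mul_assoc]
        exact M.mul_mem hg0M (M.mul_mem (hM.ee _ _) (hM.ee _ _))
      · intro hcon
        apply hh0
        have := hcon.mul (hMn.inv h2)
        rwa [mul_inv_cancel_right] at this
  -- a unipotent rotation
  obtain ⟨h, hhG, hne1, d, hd0, hdd, hhd⟩ : ∃ h ∈ G, h ≠ 1 ∧ ∃ d : Fin 3 → F, d ≠ 0 ∧ d ⬝ᵥ d = 0 ∧ h d = d := by
    by_contra hcon
    push Not at hcon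
    exact hh1 (E1 h3 G (fun g hg => hg.1) hh4 (fun g hg hg1 v hv hvv => hcon g hg hg1 v hv hvv) h1 hh1G)
  obtain ⟨i, hi⟩ : ∃ i, d i ≠ 0 := by
    by_contra hcon
    push Not at hcon
    exact hd0 (funext hcon)
  obtain ⟨y, hy, hpow⟩ := unip h2 hhG.1 hne1 hd0 hdd hhd hi
  obtain ⟨m, n, hm, hn', hmn⟩ := exists_kl h2 h3 h5 hp hy
  obtain ⟨hdt, t, htm, htf, htM⟩ := hhG
  -- the square is in `M`
  have hsq : exG φ (h ^ 2) ∈ M := by
    have c1 : exG φ h * t = t * exG φ h := Fix.comm h2 hd (exG_fix φ h) htf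
    have c2 : (exG φ h * t) * (exG φ h * t) = exG φ (h ^ 2) * (t * t) := by
      rw [map_pow, pow_two]
      calc exG φ h * t * (exG φ h * t) = exG φ h * (t * exG φ h) * t := by group
        _ = exG φ h * exG φ h * (t * t) := by rw [← c1]; group
    have c3 : t * t ∈ M := by
      rcases tsq h2 h45 htm htf with c | c <;> rw [c]
      · exact M.one_mem
      · exact hM.ee _ _
    have c4 := M.mul_mem (M.mul_mem htM htM) (M.inv_mem c3)
    rwa [c2, mul_inv_cancel_right] at c4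
  have hpm : ∀ l : ℕ, exG φ (h ^ (2 * l)) ∈ M := by
    intro l
    rw [pow_mul, map_pow]
    exact M.pow_mem hsq l
  refine light_two hM φ h45 (off ha4) (off ha5.2) (off hb0.2.2) hb0.2.1 hb0.1 (hpm m) (hpm n) (i := i) ?_ ?_ ?_
  · intro hc
    have c1 := (hpow (2 * m)).1
    rw [hc] at c1
    have c2 : (e i : Fin 3 → F) i = 1 := by simp [e]
    rw [c2] at c1
    have c3 : ((2 * m : ℕ) : F) ^ 2 * y = 0 := by linear_combination -c1
    exact (mul_ne_zero (pow_ne_zero 2 hm) hy) c3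
  · intro hc
    have c1 := (hpow (2 * m)).2
    rw [hc, neg_dotProduct, e_dot] at c1
    have c3 : 2 * d i = 0 := by linear_combination -c1
    exact (mul_ne_zero h2 hi) c3
  · rw [(hpow (2 * m)).1, (hpow (2 * n)).1, hmn]


/-- three-dimensional supports, at least six coordinates -/
theorem light_of_three_low [Fintype F] (hp : (Fintype.card F).Prime) (hn : 6 ≤ Fintype.card ι)
    {M : Subgroup (OGrp (Q0 F ι))} (hM : Base M) (J : Finset ι) (hJ : J.card = 3)
    (hex : ∃ g ∈ M, Fix J g ∧ ¬ Mon g) : Light M :=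
  light_of_three_aux6 hp hn (fun h3 G hdet h4 hreg => mon_of_regular hM.two h3 G hdet h4 hreg) hM J hJ hex

end Cfsg.Agent.SmallDim.Fr
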