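import Cfsg.Agent.SmallDim.Fr.Sup
import Cfsg.Agent.AutO.Std

/-!
# Rotations of the 3-dimensional space `Fin 3 → F` and the cross product (helper2)
-/

set_option autoImplicit false
set_option linter.unusedSectionVars false
set_option linter.unusedVariables false

namespace Cfsg.Agent.SmallDim.Fr

open QuadraticMap Module Cfsg.Agent.Orth Cfsg.Agent.GeoMax.Ort
open Matrix

variable {F : Type*} [Field F]

/-- the determinant of an isometry -/
noncomputable abbrev dt {ι : Type} [Fintype ι] [DecidableEq ι] (g : OGrp (Q0 F ι)) : F :=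
  LinearMap.det ((g : (ι → F) ≃ₗ[F] (ι → F)) : (ι → F) →ₗ[F] (ι → F))

theorem dt_mul {ι : Type} [Fintype ι] [DecidableEq ι] (g h : OGrp (Q0 F ι)) : dt (g * h) = dt g * dt h := by
  have : (((g * h : OGrp (Q0 F ι)) : (ι → F) ≃ₗ[F] (ι → F)) : (ι → F) →ₗ[F] (ι → F)) =
      ((g : (ι → F) ≃ₗ[F] (ι → F)) : (ι → F) →ₗ[F] (ι → F)) ∘ₗ ((h : (ι → F) ≃ₗ[F] (ι → F)) : (ι → F) →ₗ[F] (ι → F)) := rfl
  rw [dt, this, LinearMap.det_comp]

theorem dt_one {ι : Type} [Fintype ι] [DecidableEq ι] : dt (1 : OGrp (Q0 F ι)) = 1 := by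
  have : (((1 : OGrp (Q0 F ι)) : (ι → F) ≃ₗ[F] (ι → F)) : (ι → F) →ₗ[F] (ι → F)) = LinearMap.id := rfl
  rw [dt, this, LinearMap.det_id]

theorem dt_rf {ι : Type} [Fintype ι] [DecidableEq ι] {v : ι → F} (h : v ⬝ᵥ v ≠ 0) : dt (rf v) = -1 := by
  have h' : Q0 F ι v ≠ 0 := by rwa [Q0_apply]
  rw [dt, rf_eq h']
  exact AutO.det_refl_eq h'

theorem dt_inv {ι : Type} [Fintype ι] [DecidableEq ι] {g : OGrp (Q0 F ι)} (hg : dt g = 1) : dt g⁻¹ = 1 := by
  have h := dt_mul g g⁻¹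
  rw [mul_inv_cancel, dt_one, hg, one_mul] at h
  exact h.symm

theorem dt_pm {ι : Type} [Fintype ι] [DecidableEq ι] (h2 : (2 : F) ≠ 0) (g : OGrp (Q0 F ι)) :
    dt g = 1 ∨ dt g = -1 := by
  set A := LinearMap.toMatrix' ((g : (ι → F) ≃ₗ[F] (ι → F)) : (ι → F) →ₗ[F] (ι → F)) with hAdef
  have hA : A.det = dt g := LinearMap.det_toMatrix' _
  have hAe : ∀ i j, A j i = (g (e i)) j := fun i j => by
    rw [hAdef, LinearMap.toMatrix'_apply]; rfl
  have h1 : Aᵀ * A = 1 := by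
    ext i j
    rw [mul_apply]
    have h3 : ∑ k, Aᵀ i k * A k j = (g (e i)) ⬝ᵥ (g (e j)) := by
      simp only [transpose_apply, hAe, dotProduct]
    rw [h3, OGrp_dot h2]
    by_cases hij : i = j
    · subst hij; simp [e]
    · simp [e, hij]
  have h3 := congrArg Matrix.det h1
  rw [det_mul, det_transpose, det_one, hA] at h3
  exact mul_self_eq_one_iff.1 h3

/-! ### cross product -/

theorem cross_dot_self_left (x y : Fin 3 → F) : x ⬝ᵥ (x ⨯₃ y) = 0 := by
  simp [crossProduct, dotProduct, Fin.sum_univ_three]; ring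

theorem triple_cross (x y z : Fin 3 → F) : x ⨯₃ (y ⨯₃ z) = (x ⬝ᵥ z) • y - (x ⬝ᵥ y) • z := by
  ext i
  fin_cases i <;> simp [crossProduct, dotProduct, Fin.sum_univ_three] <;> ring

theorem cross_dot_cross' (x y : Fin 3 → F) :
    (x ⨯₃ y) ⬝ᵥ (x ⨯₃ y) = (x ⬝ᵥ x) * (y ⬝ᵥ y) - (x ⬝ᵥ y) * (x ⬝ᵥ y) := by
  simp [crossProduct, dotProduct, Fin.sum_univ_three]; ring

theorem cross_ap {g : OGrp (Q0 F (Fin 3))} (h2 : (2 : F) ≠ 0) (hg : dt g = 1) (x y : Fin 3 → F) :
    (g x) ⨯₃ (g y) = g (x ⨯₃ y) := by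
  refine eq_of_dot fun z => ?_
  obtain ⟨z', rfl⟩ : ∃ z', g z' = z := ⟨g⁻¹ z, ap_inv_self g z⟩
  rw [OGrp_dot h2, dotProduct_comm, dotProduct_comm (x ⨯₃ y), triple_product_eq_det, triple_product_eq_det]
  set A := LinearMap.toMatrix' ((g : (Fin 3 → F) ≃ₗ[F] (Fin 3 → F)) : (Fin 3 → F) →ₗ[F] (Fin 3 → F)) with hA
  have hAdet : A.det = 1 := by rw [hA, LinearMap.det_toMatrix']; exact hg
  have hAv : ∀ v : Fin 3 → F, g v = A *ᵥ v := fun v => (LinearMap.toMatrix'_mulVec _ v).symm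
  have hm : (Matrix.of ![g z', g x, g y]) = (Matrix.of ![z', x, y]) * Aᵀ := by
    ext i j
    fin_cases i <;> simp [hAv, mulVec, dotProduct, mul_apply, Fin.sum_univ_three, mul_comm]
  change (Matrix.of ![g z', g x, g y]).det = (Matrix.of ![z', x, y]).det
  rw [hm, det_mul, det_transpose, hAdet, mul_one]

/-- vectors with zero cross product are proportional -/
theorem par_of_cross {d z : Fin 3 → F} (hd : d ≠ 0) (h : z ⨯₃ d = 0) : ∃ c : F, z = c • d := by
  obtain ⟨i, hi⟩ : ∃ i, d i ≠ 0 := by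
    by_contra hcon
    push Not at hcon
    exact hd (funext hcon)
  refine ⟨z i / d i, ?_⟩
  have h0 := congrFun h 0
  have h1 := congrFun h 1
  have h2 := congrFun h 2
  simp [crossProduct] at h0 h1 h2
  funext j
  simp only [Pi.smul_apply, smul_eq_mul]
  rw [div_mul_eq_mul_div, eq_div_iff hi]
  fin_cases i <;> fin_cases j <;> simp at * <;> first | linear_combination h0 | linear_combination -h0 | linear_combination h1 | linear_combination -h1 | linear_combination h2 | linear_combination -h2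

/-- a rotation fixing two vectors with nonsingular cross product is trivial -/
theorem eq_one_of_cross {g : OGrp (Q0 F (Fin 3))} (h2 : (2 : F) ≠ 0) (hg : dt g = 1) {x y : Fin 3 → F}
    (hx : g x = x) (hy : g y = y) (hn : (x ⨯₃ y) ⬝ᵥ (x ⨯₃ y) ≠ 0) : g = 1 := by
  have hxy : g (x ⨯₃ y) = x ⨯₃ y := by rw [← cross_ap h2 hg, hx, hy]
  have key : ∀ {w : Fin 3 → F}, g w = w → ∀ z, (g z - z) ⬝ᵥ w = 0 := by
    intro w hw z
    rw [sub_dotProduct]
    conv_lhs => enter [1]; rw [← hw]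
    rw [OGrp_dot h2, sub_self]
  refine OGrp_ext fun z => ?_
  change g z = z
  have a1 := key hx z
  have a2 := key hy z
  have a3 := key hxy z
  set u := g z - z with hu
  have b1 : u ⨯₃ (x ⨯₃ y) = 0 := by rw [triple_cross, a1, a2, zero_smul, zero_smul, sub_zero]
  have hne : x ⨯₃ y ≠ 0 := fun h => hn (by rw [h, zero_dotProduct])
  obtain ⟨c, hc⟩ := par_of_cross hne b1
  have b2 : c * ((x ⨯₃ y) ⬝ᵥ (x ⨯₃ y)) = 0 := by rw [← smul_eq_mul, ← smul_dotProduct, ← hc, a3]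
  have b3 : c = 0 := (mul_eq_zero.1 b2).resolve_right hn
  rw [b3, zero_smul, hu] at hc
  exact sub_eq_zero.1 hc

/-- structure of a rotation `≠ 1` fixing a singular vector -/
theorem unip {h : OGrp (Q0 F (Fin 3))} (h2 : (2 : F) ≠ 0) (hh : dt h = 1) (h1 : h ≠ 1) {d : Fin 3 → F}
    (hd0 : d ≠ 0) (hdd : d ⬝ᵥ d = 0) (hd : h d = d) {i : Fin 3} (hi : d i ≠ 0) :
    ∃ y : F, y ≠ 0 ∧ ∀ k : ℕ, (h ^ k) (e i) i = 1 + (k : F) ^ 2 * y ∧ ((h ^ k) (e i)) ⬝ᵥ d = d i := by
  set y : Fin 3 → F := h (e i) - e i with hy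
  have hei : h (e i) = e i + y := by rw [hy]; abel
  have hyd : y ⬝ᵥ d = 0 := by
    rw [hy, sub_dotProduct]
    conv_lhs => enter [1]; rw [← hd]
    rw [OGrp_dot h2, sub_self]
  have hyy : y ⬝ᵥ y = -2 * y i := by
    have a1 : (h (e i)) ⬝ᵥ (h (e i)) = 1 := by rw [OGrp_dot h2, e_dot_e_self]
    rw [hei, dotProduct_add, add_dotProduct, add_dotProduct, e_dot_e_self, e_dot, dot_e] at a1
    linear_combination a1
  -- cross product with d
  obtain ⟨α, hα⟩ : ∃ α : F, y ⨯₃ d = α • d := by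
    refine par_of_cross hd0 ?_
    have a1 : d ⨯₃ (y ⨯₃ d) = 0 := by
      rw [triple_cross, hdd, dotProduct_comm, hyd, zero_smul, zero_smul, sub_zero]
    rw [← neg_cross, neg_eq_zero] 
    exact a1
  obtain ⟨μ, hμ⟩ : ∃ μ : F, h y - y = μ • d := by
    refine par_of_cross hd0 ?_
    have a1 : (h y) ⨯₃ d = α • d := by
      conv_lhs => rw [← hd]
      rw [cross_ap h2 hh, hα, ap_smul, hd]
    rw [map_sub, LinearMap.sub_apply, a1, hα, sub_self]
  have hμ' : h y = y + μ • d := by rw [← hμ]; abel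
  have hμd : μ * d i = 2 * y i := by
    have a1 : (h y) ⬝ᵥ (h (e i)) = y i := by rw [OGrp_dot h2, dot_e]
    rw [hμ', hei, add_dotProduct, dotProduct_add, dotProduct_add, smul_dotProduct, smul_dotProduct, dot_e, dot_e,
      dotProduct_comm d y, hyd, hyy] at a1
    simp only [smul_eq_mul, mul_zero, add_zero] at a1
    linear_combination a1
  have hyi : y i ≠ 0 := by
    intro hyi
    rw [hyi, mul_zero] at hyy
    have a1 : y ⨯₃ (y ⨯₃ d) = 0 := by rw [triple_cross, hyd, hyy, zero_smul, zero_smul, sub_zero]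
    rw [hα, map_smul, hα, smul_smul] at a1
    have a2 : α = 0 := mul_self_eq_zero.1 ((smul_eq_zero.1 a1).resolve_right hd0)
    rw [a2, zero_smul] at hα
    obtain ⟨c, hc⟩ := par_of_cross hd0 hα
    have a3 : c * d i = 0 := by rw [← hyi, hc]; rfl
    have a4 : c = 0 := (mul_eq_zero.1 a3).resolve_right hi
    rw [a4, zero_smul] at hc
    refine h1 (eq_one_of_cross h2 hh (x := e i) (y := d) (by rw [hei, hc, add_zero]) hd ?_)
    rw [cross_dot_cross', e_dot_e_self, hdd, e_dot, mul_zero, zero_sub]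
    exact neg_ne_zero.2 (mul_ne_zero hi hi)
  have hpd : ∀ k : ℕ, (h ^ k) d = d := by
    intro k
    induction k with
    | zero => rw [pow_zero]; rfl
    | succ k ih => rw [pow_succ, mul_ap, hd, ih]
  have hpy : ∀ k : ℕ, (h ^ k) y = y + ((k : F) * μ) • d := by
    intro k
    induction k with
    | zero => rw [pow_zero, Nat.cast_zero, zero_mul, zero_smul, add_zero]; rfl
    | succ k ih =>
      rw [pow_succ, mul_ap, hμ', ap_add, ap_smul, ih, hpd, Nat.cast_succ, add_mul, one_mul, add_smul, add_assoc]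
  have hpe : ∀ k : ℕ, ∃ s : F, 2 * s = (k : F) * (k - 1) ∧ (h ^ k) (e i) = e i + (k : F) • y + (s * μ) • d := by
    intro k
    induction k with
    | zero =>
      refine ⟨0, by simp, ?_⟩
      rw [pow_zero, Nat.cast_zero, zero_smul, zero_mul, zero_smul, add_zero, add_zero]; rfl
    | succ k ih =>
      obtain ⟨s, hs, hs'⟩ := ih
      refine ⟨s + k, ?_, ?_⟩
      · push_cast; linear_combination hs
      · rw [pow_succ, mul_ap, hei, ap_add, hs', hpy]
        push_cast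
        module
  refine ⟨y i, hyi, fun k => ⟨?_, ?_⟩⟩
  · obtain ⟨s, hs, hs'⟩ := hpe k
    rw [hs']
    simp only [Pi.add_apply, Pi.smul_apply, smul_eq_mul]
    have : (e i : Fin 3 → F) i = 1 := by simp [e]
    rw [this]
    linear_combination s * hμd + y i * hs
  · conv_lhs => rw [← hpd k]
    rw [OGrp_dot h2, e_dot]

end Cfsg.Agent.SmallDim.Fr
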