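import Cfsg.Agent.H2.PStable
import Cfsg.Agent.H2.Reduct

set_option autoImplicit false
set_option linter.all false
open scoped commutatorElement

/-! Groups with a series `p`, abelian `p'`, `p`; closure under sections; strong fusion control and
normal `p`-complements (helper2). -/

namespace Cfsg.Agent.H2

open Subgroup Cfsg.Agent.Transfer Cfsg.Agent.H33

universe u

variable {p : ℕ}

/-- `Y` has a series with a `p`-group, an abelian `p'`-group and a `p`-group. -/
def PAP (p : ℕ) (Y : Type u) [Group Y] : Prop :=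
  ∃ A B : Subgroup Y, A.Normal ∧ B.Normal ∧ A ≤ B ∧ IsPGroup p A ∧ (A.relIndex B).Coprime p ∧
    ⁅B, B⁆ ≤ A ∧ ∃ k, B.index = p ^ k

theorem PAP.isNormalizerPStable {Y : Type u} [Group Y] [Finite Y] [hp : Fact p.Prime]
    (hp2 : p ≠ 2) (h : PAP p Y) : Cfsg.IsNormalizerPStable p Y := by
  obtain ⟨A, B, hA, hB, _, hAp, hc, hcomm, hi⟩ := h
  exact isNormalizerPStable_of_series hp2 A B hAp hc hcomm hi

theorem PAP.subgroup {Y : Type u} [Group Y] [Finite Y] [hp : Fact p.Prime] (h : PAP p Y)
    (N : Subgroup Y) : PAP p N := by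
  obtain ⟨A, B, hA, hB, hAB, hAp, hcop, hcomm, hi⟩ := h
  refine ⟨A.subgroupOf N, B.subgroupOf N, inferInstance, inferInstance, comap_mono hAB,
    hAp.comap_of_injective _ N.subtype_injective, ?_, ?_, ?_⟩
  · have h1 : (A.subgroupOf N).relIndex (B.subgroupOf N) = A.relIndex (B ⊓ N) := by
      rw [← relIndex_subgroupOf (inf_le_right : B ⊓ N ≤ N)]
      congr 1
      ext x; simp [mem_subgroupOf]
    have h2 : A.relIndex (B ⊓ N) ∣ A.relIndex B := by
      have h3 := relIndex_dvd_index_of_normal (A.subgroupOf B) ((B ⊓ N).subgroupOf B)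
      rwa [relIndex_subgroupOf inf_le_left] at h3
    rw [h1]
    exact hcop.coprime_dvd_left h2
  · rw [← map_le_map_iff_of_injective N.subtype_injective, map_commutator]
    rw [subgroupOf_map_subtype, subgroupOf_map_subtype]
    refine le_inf ?_ ?_
    · exact (commutator_mono inf_le_left inf_le_left).trans hcomm
    · exact (commutator_mono inf_le_right inf_le_right).trans (commutator_le_self N)
  · obtain ⟨k, hk⟩ := hi
    have h1 : (B.subgroupOf N).index ∣ B.index := relIndex_dvd_index_of_normal B N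
    rw [hk] at h1
    obtain ⟨l, _, hl⟩ := (Nat.dvd_prime_pow hp.out).1 h1
    exact ⟨l, hl⟩

theorem PAP.of_surjective {Y Z : Type u} [Group Y] [Group Z] [Finite Y] [hp : Fact p.Prime]
    (h : PAP p Y) (f : Y →* Z) (hf : Function.Surjective f) : PAP p Z := by
  obtain ⟨A, B, hA, hB, hAB, hAp, hcop, hcomm, hi⟩ := h
  refine ⟨A.map f, B.map f, hA.map f hf, hB.map f hf, map_mono hAB, hAp.map f, ?_, ?_, ?_⟩
  · rw [relIndex_map_map]
    have h1 : B ⊔ f.ker = B ⊔ (A ⊔ f.ker) := by
      rw [← sup_assoc, sup_eq_left.2 hAB]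
    rw [h1, relIndex_sup_right]
    exact hcop.coprime_dvd_left (relIndex_dvd_of_le_left _ le_sup_left)
  · rw [← map_commutator]; exact map_mono hcomm
  · obtain ⟨k, hk⟩ := hi
    have h1 : (B.map f).index ∣ B.index := index_map_dvd B hf
    rw [hk] at h1
    obtain ⟨l, _, hl⟩ := (Nat.dvd_prime_pow hp.out).1 h1
    exact ⟨l, hl⟩

theorem PAP.sec {Y Z : Type u} [Group Y] [Group Z] [Finite Y] [hp : Fact p.Prime]
    (h : PAP p Y) (hs : Sec Z Y) : PAP p Z := by
  obtain ⟨K, f, hf⟩ := hs
  exact (h.subgroup K).of_surjective f hf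

theorem GoodSec.pap {W : ∀ (Q : Type u) [Group Q], Subgroup Q} {X : Type u} [Group X]
    (h : GoodSec p W X) : PAP p X := by
  obtain ⟨K, hK, hHK, hc, hi, hcomm⟩ := h.comm
  exact ⟨Cfsg.pCore p X, K, inferInstance, hK, hHK, Cfsg.Agent.Solv.pCore_isPGroup p, hc, hcomm, hi⟩

/-- If the normalizer of `U` has a normal `p`-complement and `U` controls strong fusion, so does `G`. -/
theorem hasNPC_of_controlsStrongFusion {X : Type u} [Group X] [Finite X] [hp : Fact p.Prime]
    {U : Subgroup X} (h : Cfsg.ControlsStrongFusion p U)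
    (hN : Cfsg.HasNormalPComplement p ↥(normalizer (U : Set X))) :
    Cfsg.HasNormalPComplement p X := by
  obtain ⟨T, hUT, hT⟩ := h
  have hTN : (T : Subgroup X) ≤ normalizer (U : Set X) := by
    intro g hg
    obtain ⟨-, h1⟩ := hT (T : Set X) le_rfl
    obtain ⟨x, hx, hxa⟩ := h1 g (by
      rintro _ ⟨a, ha, rfl⟩
      exact mul_mem (mul_mem hg ha) (inv_mem hg))
    have h2 : g⁻¹ * x ∈ centralizer (U : Set X) := by
      rw [mem_centralizer_iff]
      intro u hu
      have h3 := hxa u (hUT hu)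
      calc u * (g⁻¹ * x) = g⁻¹ * (g * u * g⁻¹) * x := by group
        _ = g⁻¹ * (x * u * x⁻¹) * x := by rw [h3]
        _ = g⁻¹ * x * u := by group
    have h4 : g⁻¹ * x ∈ normalizer (U : Set X) := centralizer_le_normalizer _ h2
    have h5 : g = x * (g⁻¹ * x)⁻¹ := by group
    rw [h5]
    exact mul_mem hx (inv_mem h4)
  refine hasNPC_of_control (P := T) hTN ?_ hN
  intro x hx g hg
  obtain ⟨-, h1⟩ := hT {x} (Set.singleton_subset_iff.2 hx)
  obtain ⟨y, hy, hya⟩ := h1 g (by rw [Set.image_singleton]; exact Set.singleton_subset_iff.2 hg)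
  exact ⟨y, hy, (hya x rfl).symm⟩

end Cfsg.Agent.H2
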