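import Mathlib.Algebra.CharP.Lemmas
import Mathlib.Algebra.CharP.Frobenius
import Mathlib.Tactic

set_option autoImplicit false
set_option linter.all false

/-! Quadratic action in odd characteristic on rings of endomorphisms (helper2). -/

namespace Cfsg.Agent.H2

section Ring

variable {E : Type*} [Ring E] {p : ℕ}

theorem charP_of_natCast_eq_zero [Nontrivial E] (hp : p.Prime) (h0 : (p : E) = 0) : CharP E p := by
  refine CharP.mk (fun x => ?_)
  constructor
  · intro hx
    by_contra hd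
    have hc : Nat.Coprime x p := ((Nat.Prime.coprime_iff_not_dvd hp).2 hd).symm
    obtain ⟨a, b, hab⟩ := (Nat.isCoprime_iff_coprime.2 hc)
    have h1 : ((a * x + b * p : ℤ) : E) = 1 := by rw [hab]; simp
    push_cast at h1
    rw [hx, h0, mul_zero, mul_zero, add_zero] at h1
    exact zero_ne_one h1
  · rintro ⟨c, rfl⟩
    push_cast
    rw [h0, zero_mul]

theorem pow_char_add_of_commute (hp : p.Prime) (h0 : (p : E) = 0) {x y : E} (h : Commute x y) (k : ℕ) :
    (x + y) ^ p ^ k = x ^ p ^ k + y ^ p ^ k := by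
  rcases subsingleton_or_nontrivial E with hE | hE
  · exact Subsingleton.elim _ _
  · haveI : Fact p.Prime := ⟨hp⟩
    haveI : CharP E p := charP_of_natCast_eq_zero hp h0
    haveI : ExpChar E p := ExpChar.prime hp
    exact add_pow_expChar_pow_of_commute p k h

theorem neg_pow_fix (hp : p.Prime) (hp2 : p ≠ 2) {x : E} {k : ℕ} (hx : x ^ p ^ k = x) :
    (-x) ^ p ^ k = -x := by
  rw [Odd.neg_pow ((hp.odd_of_ne_two hp2).pow), hx]

theorem eq_zero_of_sq_eq_zero {x : E} {m : ℕ} (hm : 2 ≤ m) (hx : x ^ m = x) (h : x * x = 0) : x = 0 := by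
  obtain ⟨j, rfl⟩ := Nat.exists_eq_add_of_le hm
  rw [← hx, pow_add, pow_two, h, zero_mul]

theorem eq_zero_of_two_mul (hp : p.Prime) (hp2 : p ≠ 2) (h0 : (p : E) = 0) {x : E}
    (hx : 2 * x = 0) : x = 0 := by
  obtain ⟨m, hm⟩ := hp.odd_of_ne_two hp2
  have h1 : (p : E) * x = 0 := by rw [h0, zero_mul]
  rw [hm] at h1
  push_cast at h1
  have : (2 * (m : E) + 1) * x = (m : E) * (2 * x) + x := by
    have : (m : E) * 2 = 2 * m := by exact (Nat.cast_commute m (2:E)).eq
    rw [add_mul, one_mul, ← mul_assoc, ← this]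
  rw [this, hx, mul_zero, zero_add] at h1
  exact h1

theorem conj_pow {u v r : E} (huv : v * u = 1) (m : ℕ) (hvu : u * v = 1): (u * r * v) ^ m = u * r ^ m * v := by
  induction m with
  | zero => simp [hvu]
  | succ m ih =>
    rw [pow_succ, ih, pow_succ]
    calc u * r ^ m * v * (u * r * v) = u * r ^ m * (v * u) * r * v := by noncomm_ring
      _ = u * (r ^ m * r) * v := by rw [huv]; noncomm_ring

theorem nrn_eq_zero (hp : p.Prime) (hp2 : p ≠ 2) (h0 : (p : E) = 0) {n r : E}
    (hn : n * n = 0) {k : ℕ} (hk : 0 < k) (hr : r ^ p ^ k = r)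
    (h01 : Commute r ((1 + n) * r * (1 - n)))
    (h02 : Commute r ((1 + 2 * n) * r * (1 - 2 * n)))
    (h12 : Commute ((1 + n) * r * (1 - n)) ((1 + 2 * n) * r * (1 - 2 * n))) :
    n * r * n = 0 := by
  set r1 := (1 + n) * r * (1 - n) with hr1
  set r2 := (1 + 2 * n) * r * (1 - 2 * n) with hr2
  have e1 : (1 + n) * (1 - n) = 1 := by
    have : (1 + n) * (1 - n) = 1 - n * n := by noncomm_ring
    rw [this, hn, sub_zero]
  have e1' : (1 - n) * (1 + n) = 1 := by
    have : (1 - n) * (1 + n) = 1 - n * n := by noncomm_ring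
    rw [this, hn, sub_zero]
  have e2 : (1 + 2 * n) * (1 - 2 * n) = 1 := by
    have : (1 + 2 * n) * (1 - 2 * n) = 1 - 4 * (n * n) := by noncomm_ring
    rw [this, hn, mul_zero, sub_zero]
  have e2' : (1 - 2 * n) * (1 + 2 * n) = 1 := by
    have : (1 - 2 * n) * (1 + 2 * n) = 1 - 4 * (n * n) := by noncomm_ring
    rw [this, hn, mul_zero, sub_zero]
  have f1 : r1 ^ p ^ k = r1 := by rw [hr1, conj_pow e1' _ e1, hr]
  have f2 : r2 ^ p ^ k = r2 := by rw [hr2, conj_pow e2' _ e2, hr]
  set x := (r2 + -r1) + (-r1 + r) with hx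
  have hxe : x = -(2 * (n * r * n)) := by
    have : x = -(2 * (n * r * n)) := by
      rw [hx, hr1, hr2]; noncomm_ring
    exact this
  have hxx : x * x = 0 := by
    have : x * x = 4 * (n * r * (n * n) * r * n) := by rw [hxe]; noncomm_ring
    rw [this, hn]; simp
  have hxp : x ^ p ^ k = x := by
    have c1 : (r2 + -r1) ^ p ^ k = r2 + -r1 := by
      rw [pow_char_add_of_commute hp h0 (h12.symm.neg_right), f2, neg_pow_fix hp hp2 f1]
    have c2 : (-r1 + r) ^ p ^ k = -r1 + r := by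
      rw [pow_char_add_of_commute hp h0 (h01.symm.neg_left), hr, neg_pow_fix hp hp2 f1]
    rw [hx, pow_char_add_of_commute hp h0 _, c1, c2]
    have k1 : Commute r2 r1 := h12.symm
    have k2 : Commute r2 r := h02.symm
    have k3 : Commute r1 r := h01.symm
    exact ((k1.neg_right.add_right k2).add_left
      (((Commute.refl r1).neg_right.neg_left).add_right k3.neg_left))
  have hx0 : x = 0 := by
    refine eq_zero_of_sq_eq_zero (m := p ^ k) ?_ hxp hxx
    calc 2 ≤ p := hp.two_le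
      _ = p ^ 1 := (pow_one p).symm
      _ ≤ p ^ k := Nat.pow_le_pow_right hp.pos hk
  rw [hx0] at hxe
  exact eq_zero_of_two_mul hp hp2 h0 (neg_eq_zero.1 hxe.symm)

/-- Key lemma: `n² = 0`, `r` a `p'`-element commuting with its conjugates under `1 + n` and `(1+n)²`:
then `n` commutes with `r`. -/
theorem commute_of_quadratic (hp : p.Prime) (hp2 : p ≠ 2) (h0 : (p : E) = 0) {n r : E}
    (hn : n * n = 0) {k : ℕ} (hk : 0 < k) (hr : r ^ p ^ k = r)
    (h01 : Commute r ((1 + n) * r * (1 - n)))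
    (h02 : Commute r ((1 + 2 * n) * r * (1 - 2 * n)))
    (h12 : Commute ((1 + n) * r * (1 - n)) ((1 + 2 * n) * r * (1 - 2 * n))) :
    Commute n r := by
  have e1 : (1 - n) * (1 + n) = 1 := by
    have : (1 - n) * (1 + n) = 1 - n * n := by noncomm_ring
    rw [this, hn, sub_zero]
  have e1' : (1 + n) * (1 - n) = 1 := by
    have : (1 + n) * (1 - n) = 1 - n * n := by noncomm_ring
    rw [this, hn, sub_zero]
  have e2 : (1 - 2 * n) * (1 + 2 * n) = 1 := by
    have : (1 - 2 * n) * (1 + 2 * n) = 1 - 4 * (n * n) := by noncomm_ring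
    rw [this, hn, mul_zero, sub_zero]
  have e2' : (1 + 2 * n) * (1 - 2 * n) = 1 := by
    have : (1 + 2 * n) * (1 - 2 * n) = 1 - 4 * (n * n) := by noncomm_ring
    rw [this, hn, mul_zero, sub_zero]
  have h1 : n * r * n = 0 := nrn_eq_zero hp hp2 h0 hn hk hr h01 h02 h12
  have h2 : n * (r ^ 2) * n = 0 := by
    have g1 : (1 + n) * r ^ 2 * (1 - n) = ((1 + n) * r * (1 - n)) ^ 2 := (conj_pow e1 2 e1').symm
    have g2 : (1 + 2 * n) * r ^ 2 * (1 - 2 * n) = ((1 + 2 * n) * r * (1 - 2 * n)) ^ 2 :=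
      (conj_pow e2 2 e2').symm
    apply nrn_eq_zero hp hp2 h0 hn hk
    · rw [← pow_mul, mul_comm, pow_mul, hr]
    · rw [g1]; exact h01.pow_pow 2 2
    · rw [g2]; exact h02.pow_pow 2 2
    · rw [g1, g2]; exact h12.pow_pow 2 2
  set r1 := (1 + n) * r * (1 - n) with hr1
  have f1 : r1 ^ p ^ k = r1 := by rw [hr1, conj_pow e1 _ e1', hr]
  set y := r1 + -r with hy
  have hye : y = n * r - r * n := by
    have : y = n * r - r * n - n * r * n := by rw [hy, hr1]; noncomm_ring
    rw [this, h1, sub_zero]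
  have hyy : y * y = 0 := by
    have : y * y = (n * r * n) * r - n * r ^ 2 * n - r * (n * n) * r + r * (n * r * n) := by
      rw [hye]; noncomm_ring
    rw [this, h1, h2, hn]; simp
  have hyp : y ^ p ^ k = y := by
    rw [hy, pow_char_add_of_commute hp h0 (h01.symm.neg_right), f1, neg_pow_fix hp hp2 hr]
  have hy0 : y = 0 := by
    refine eq_zero_of_sq_eq_zero (m := p ^ k) ?_ hyp hyy
    calc 2 ≤ p := hp.two_le
      _ = p ^ 1 := (pow_one p).symm
      _ ≤ p ^ k := Nat.pow_le_pow_right hp.pos hk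
  rw [hy0] at hye
  exact (sub_eq_zero.1 hye.symm)

end Ring

end Cfsg.Agent.H2
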