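import Mathlib
import Cfsg.Agent.H2.QuadRing

set_option autoImplicit false
set_option linter.all false
open scoped commutatorElement

/-! Quadratic action in odd characteristic: group form (helper2). -/

namespace Cfsg.Agent.H2

open Subgroup

variable {G : Type*} [Group G] {p : ℕ}

/-- ring form of the quadratic lemma for a group acting through `φ`. -/
theorem commute_map_of_quadratic {E : Type*} [Ring E] (hp : p.Prime) (hp2 : p ≠ 2)
    (h0 : (p : E) = 0) (φ : G →* E) {g b : G} (hg : (φ g - 1) * (φ g - 1) = 0) {m : ℕ}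
    (hm : m.Coprime p) (hb : φ b ^ m = 1)
    (h1 : Commute (φ b) (φ (g * b * g⁻¹))) (h2 : Commute (φ b) (φ (g ^ 2 * b * (g ^ 2)⁻¹)))
    (h3 : Commute (φ (g * b * g⁻¹)) (φ (g ^ 2 * b * (g ^ 2)⁻¹))) : Commute (φ g) (φ b) := by
  have hinv : ∀ x : G, ∀ y : E, φ x * y = 1 → y = φ x⁻¹ := by
    intro x y hxy
    have : φ x⁻¹ * φ x = 1 := by rw [← map_mul, inv_mul_cancel, map_one]
    calc y = (φ x⁻¹ * φ x) * y := by rw [this, one_mul]
      _ = φ x⁻¹ * (φ x * y) := by rw [mul_assoc]
      _ = φ x⁻¹ := by rw [hxy, mul_one]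
  set n := φ g - 1 with hn
  have e1 : φ g = 1 + n := by rw [hn]; abel
  have e2 : φ (g ^ 2) = 1 + 2 * n := by
    rw [map_pow, e1]
    have : (1 + n) ^ 2 = 1 + 2 * n + n * n := by noncomm_ring
    rw [this, hg, add_zero]
  have e1' : φ g⁻¹ = 1 - n := by
    refine (hinv g _ ?_).symm
    rw [e1]
    have : (1 + n) * (1 - n) = 1 - n * n := by noncomm_ring
    rw [this, hg, sub_zero]
  have e2' : φ (g ^ 2)⁻¹ = 1 - 2 * n := by
    refine (hinv _ _ ?_).symm
    rw [e2]
    have : (1 + 2 * n) * (1 - 2 * n) = 1 - 4 * (n * n) := by noncomm_ring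
    rw [this, hg, mul_zero, sub_zero]
  rw [map_mul, map_mul, e1, e1'] at h1 h3
  rw [map_mul, map_mul, e2, e2'] at h2 h3
  have hm0 : 0 < m := by
    rcases Nat.eq_zero_or_pos m with h | h
    · rw [h, Nat.coprime_zero_left] at hm
      exact absurd hm hp.one_lt.ne'
    · exact h
  have hr : φ b ^ p ^ (m.totient) = φ b := by
    have h4 : p ^ m.totient ≡ 1 [MOD m] := Nat.ModEq.pow_totient hm.symm
    have h5 : 1 ≤ p ^ m.totient := Nat.one_le_pow _ _ hp.pos
    obtain ⟨t, ht⟩ := (Nat.modEq_iff_dvd' h5).1 h4.symm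
    have h6 : p ^ m.totient = m * t + 1 := by omega
    rw [h6, pow_add, pow_mul, hb, one_pow, one_mul, pow_one]
  have h7 : Commute n (φ b) :=
    commute_of_quadratic hp hp2 h0 hg (Nat.totient_pos.2 hm0) hr h1 h2 h3
  rw [e1]
  exact (Commute.one_left _).add_left h7

/-- Quadratic action in odd characteristic centralizes abelian `p'`-groups of operators: absolute form. -/
theorem commutator_mem_centralizer_of_quadratic (hp : p.Prime) (hp2 : p ≠ 2) {U B : Subgroup G}
    [hUn : U.Normal] (hUc : ∀ x ∈ U, ∀ y ∈ U, x * y = y * x) (hUp : ∀ x ∈ U, x ^ p = 1) [hBn : B.Normal]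
    (hB : ⁅B, B⁆ ≤ centralizer (U : Set G))
    (hBp : ∀ b ∈ B, ∃ m : ℕ, m.Coprime p ∧ b ^ m ∈ centralizer (U : Set G))
    {g : G} (hg : ∀ u ∈ U, ⁅g, ⁅g, u⁆⁆ = 1) {b : G} (hb : b ∈ B) :
    ⁅g, b⁆ ∈ centralizer (U : Set G) := by
  letI : CommGroup U := { (inferInstance : Group U) with
    mul_comm := fun x y => Subtype.ext (hUc x x.2 y y.2) }
  let φ : G →* AddMonoid.End (Additive U) :=
    { toFun := fun x => MonoidHom.toAdditive ((MulAut.conjNormal x : MulAut U).toMonoidHom)
      map_one' := by
        apply AddMonoidHom.ext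
        intro v
        change Additive.ofMul ((MulAut.conjNormal (1 : G) : MulAut U) (Additive.toMul v)) = v
        rw [map_one]; rfl
      map_mul' := by
        intro x y
        apply AddMonoidHom.ext
        intro v
        change Additive.ofMul ((MulAut.conjNormal (x * y) : MulAut U) (Additive.toMul v)) =
          Additive.ofMul ((MulAut.conjNormal x : MulAut U)
            ((MulAut.conjNormal y : MulAut U) (Additive.toMul v)))
        rw [map_mul]; rfl }
  have hφ : ∀ (x : G) (u : U), (((φ x (Additive.ofMul u)).toMul : U) : G) = x * u * x⁻¹ := by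
    intro x u
    change (((MulAut.conjNormal x : MulAut U) u : U) : G) = _
    rw [MulAut.conjNormal_apply]
  have hext : ∀ f f' : AddMonoid.End (Additive U),
      (∀ u : U, (((f (Additive.ofMul u)).toMul : U) : G) = (((f' (Additive.ofMul u)).toMul : U) : G)) →
      f = f' := by
    intro f f' h
    apply AddMonoidHom.ext
    intro v
    exact Additive.toMul.injective (Subtype.ext (h (Additive.toMul v)))
  have hone : ∀ x ∈ centralizer (U : Set G), φ x = 1 := by
    intro x hx
    apply hext
    intro u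
    rw [hφ]
    have := mem_centralizer_iff.1 hx u u.2
    rw [← this]
    change (u : G) * x * x⁻¹ = u
    group
  have hcent : ∀ x : G, φ x = 1 → x ∈ centralizer (U : Set G) := by
    intro x hx
    rw [mem_centralizer_iff]
    intro u hu
    have := hφ x ⟨u, hu⟩
    rw [hx] at this
    change u = x * u * x⁻¹ at this
    calc u * x = (x * u * x⁻¹) * x := by rw [← this]
      _ = x * u := by group
  have hcommB : ∀ x ∈ B, ∀ y ∈ B, Commute (φ x) (φ y) := by
    intro x hx y hy
    have h1 : φ (⁅x, y⁆) = 1 := hone _ (hB (commutator_mem_commutator hx hy))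
    have h2 : x * y = ⁅x, y⁆ * (y * x) := by rw [commutatorElement_def]; group
    change φ x * φ y = φ y * φ x
    rw [← map_mul, h2, map_mul, h1, one_mul, map_mul]
  have h0 : ((p : ℕ) : AddMonoid.End (Additive U)) = 0 := by
    apply hext
    intro u
    have h1 : ((p : ℕ) : AddMonoid.End (Additive U)) (Additive.ofMul u) = Additive.ofMul (u ^ p) := by
      rw [AddMonoid.End.natCast_apply]; rfl
    rw [h1]
    change ((u ^ p : U) : G) = 1
    exact hUp _ u.2
  obtain ⟨m, hm, hbm⟩ := hBp b hb
  have hc : Commute (φ g) (φ b) := by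
    refine commute_map_of_quadratic hp hp2 h0 φ ?_ hm ?_ ?_ ?_ ?_
    · apply hext
      intro u
      have h1 : ∀ w : U, (((φ g - 1) (Additive.ofMul w)).toMul : U) = ⟨⁅g, (w : G)⁆, by
          rw [commutatorElement_def, mul_assoc, mul_assoc, ← mul_assoc g, ← mul_assoc (g * w)]
          exact mul_mem (hUn.conj_mem _ w.2 g) (inv_mem w.2)⟩ := by
        intro w
        apply Subtype.ext
        change (((φ g (Additive.ofMul w) - Additive.ofMul w).toMul : U) : G) = _
        rw [toMul_sub]
        change (((φ g (Additive.ofMul w)).toMul : U) : G) / (w : G) = _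
        rw [hφ, div_eq_mul_inv]
        rfl
      change ((((φ g - 1) ((φ g - 1) (Additive.ofMul u))).toMul : U) : G) = 1
      have h2 := h1 u
      have h3 : (φ g - 1) (Additive.ofMul u) = Additive.ofMul ((((φ g - 1) (Additive.ofMul u)).toMul : U)) := rfl
      rw [h3, h1, h2]
      exact hg u u.2
    · rw [← map_pow]; exact hone _ hbm
    · exact hcommB _ hb _ (hBn.conj_mem _ hb g)
    · exact hcommB _ hb _ (hBn.conj_mem _ hb _)
    · exact hcommB _ (hBn.conj_mem _ hb g) _ (hBn.conj_mem _ hb _)
  apply hcent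
  rw [commutatorElement_def, map_mul, map_mul, map_mul, hc.eq, mul_assoc (φ b), ← map_mul φ g,
    mul_inv_cancel, map_one, mul_one, ← map_mul, mul_inv_cancel, map_one]

end Cfsg.Agent.H2
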