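import Mathlib
import Cfsg.Prelude.Def_LocalEven
import Cfsg.Agent.H2.QuadGroup
import Cfsg.Agent.H2.Chain

set_option autoImplicit false
set_option linter.all false
open scoped commutatorElement

/-! `p`-stability (normalizer form) of groups with a series `p`-group, abelian `p'`-group, `p`-group,
for odd `p` (helper2). -/

namespace Cfsg.Agent.H2

open Subgroup Cfsg.Agent.Transfer Cfsg.Agent.H33

universe u

variable {p : ℕ}

theorem conj_pow_eq_of_quadratic {G : Type*} [Group G] {g u : G} (hg : ⁅g, ⁅g, u⁆⁆ = 1) (m : ℕ) :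
    g ^ m * u * (g ^ m)⁻¹ = ⁅g, u⁆ ^ m * u := by
  set w := ⁅g, u⁆ with hw
  have hc : Commute g w := by
    have : g * w * g⁻¹ * w⁻¹ = 1 := by rw [← commutatorElement_def]; exact hg
    change g * w = w * g
    calc g * w = (g * w * g⁻¹ * w⁻¹) * (w * g) := by group
      _ = w * g := by rw [this, one_mul]
  induction m with
  | zero => simp
  | succ m ih =>
    have h2 : g * u * g⁻¹ = w * u := by rw [hw, commutatorElement_def]; group
    calc g ^ (m + 1) * u * (g ^ (m + 1))⁻¹ = g * (g ^ m * u * (g ^ m)⁻¹) * g⁻¹ := by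
          rw [pow_succ']; group
      _ = (g * w ^ m * g⁻¹) * (g * u * g⁻¹) := by rw [ih]; group
      _ = w ^ m * (w * u) := by
          rw [h2, (hc.pow_right m).eq]; group
      _ = w ^ (m + 1) * u := by rw [pow_succ]; group

/-- a quadratically acting element acts as a `p`-element on a `p`-group. -/
theorem exists_pow_mem_centralizer_of_quadratic {G : Type*} [Group G] [Finite G] [hp : Fact p.Prime]
    {P : Subgroup G} (hP : IsPGroup p P) {g : G} (hgP : g ∈ normalizer (P : Set G))
    (hg : ∀ u ∈ P, ⁅g, ⁅g, u⁆⁆ = 1) : ∃ k : ℕ, g ^ p ^ k ∈ centralizer (P : Set G) := by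
  obtain ⟨k, hk⟩ := IsPGroup.iff_card.1 hP
  refine ⟨k, ?_⟩
  rw [mem_centralizer_iff]
  intro u hu
  have h1 := conj_pow_eq_of_quadratic (hg u hu) (p ^ k)
  have h2 : ⁅g, u⁆ ∈ P := by
    rw [commutatorElement_def]
    exact mul_mem ((mem_normalizer_iff.1 hgP u).1 hu) (inv_mem hu)
  have h3 : ⁅g, u⁆ ^ p ^ k = 1 := by
    have : (⟨_, h2⟩ : P) ^ Nat.card P = 1 := pow_card_eq_one'
    rw [hk] at this
    exact congrArg Subtype.val this
  rw [h3, one_mul] at h1
  calc u * g ^ p ^ k = (g ^ p ^ k * u * (g ^ p ^ k)⁻¹) * g ^ p ^ k := by rw [h1]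
    _ = g ^ p ^ k * u := by group

/-- A group whose abelian normal `p'`-subgroup `B` has `p`-power index and with `O_p = 1`: any `p`-element
centralizing `B` is trivial. -/
theorem eq_one_of_mem_centralizer_abelian {Y : Type u} [Group Y] [Finite Y] [hp : Fact p.Prime]
    (B : Subgroup Y) [B.Normal] (hcomm : ⁅B, B⁆ = ⊥) (hidx : ∃ k, B.index = p ^ k)
    (hO : Cfsg.pCore p Y = ⊥) {g : Y} (hg : g ∈ centralizer (B : Set Y)) {k : ℕ}
    (hgk : g ^ p ^ k = 1) : g = 1 := by
  set C : Subgroup Y := centralizer (B : Set Y) with hC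
  have hBC : B ≤ C := (commutator_eq_bot_iff_le_centralizer).1 hcomm
  have hnil : Group.IsNilpotent C := by
    let f : C →* Y ⧸ B := (QuotientGroup.mk' B).comp C.subtype
    haveI : Group.IsNilpotent (Y ⧸ B) := by
      obtain ⟨j, hj⟩ := hidx
      have : IsPGroup p (Y ⧸ B) := IsPGroup.of_card (by rw [← Subgroup.index_eq_card, hj])
      exact this.isNilpotent
    refine Subgroup.isNilpotent_of_ker_le_center f ?_
    intro x hx
    have hxB : (x : Y) ∈ B := (QuotientGroup.eq_one_iff (x : Y)).1 hx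
    rw [mem_center_iff]
    intro y
    apply Subtype.ext
    exact ((mem_centralizer_iff.1 y.2) x hxB).symm
  have hn : ∀ (P : Sylow p C), (P : Subgroup C).Normal := by
    intro P
    haveI := hnil
    infer_instance
  have hgC : IsPGroup p (zpowers (⟨g, hg⟩ : C)) := by
    rintro ⟨y, j, rfl⟩
    refine ⟨k, Subtype.ext ?_⟩
    have h1 : (⟨g, hg⟩ : C) ^ p ^ k = 1 := Subtype.ext hgk
    change ((⟨g, hg⟩ : C) ^ j) ^ p ^ k = 1
    rw [← zpow_natCast, ← zpow_mul, mul_comm, zpow_mul, zpow_natCast, h1, one_zpow]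
  obtain ⟨T, hT⟩ := hgC.exists_le_sylow
  haveI := hn T
  haveI : (T : Subgroup C).Characteristic := Sylow.characteristic_of_normal T inferInstance
  have h1 : ((T : Subgroup C).map C.subtype) ≤ Cfsg.pCore p Y :=
    Cfsg.Agent.Solv.le_pCore inferInstance (T.2.map _)
  rw [hO, le_bot_iff] at h1
  have h2 : g ∈ ((T : Subgroup C).map C.subtype) := ⟨⟨g, hg⟩, hT (mem_zpowers _), rfl⟩
  rw [h1, mem_bot] at h2
  exact h2

/-- `p`-stability for a normal `p`-subgroup of a group with a series `p`, abelian `p'`, `p`. -/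
theorem mem_pCore_of_quadratic {Y : Type u} [Group Y] [Finite Y] [hp : Fact p.Prime] (hp2 : p ≠ 2)
    (P A B : Subgroup Y) [hPn : P.Normal] [hAn : A.Normal] [hBn : B.Normal] (hP : IsPGroup p P)
    (hA : IsPGroup p A) (hcop : (A.relIndex B).Coprime p) (hcomm : ⁅B, B⁆ ≤ A)
    (hidx : ∃ k, B.index = p ^ k) {g : Y} (hg : ∀ u ∈ P, ⁅g, ⁅g, u⁆⁆ = 1) :
    (QuotientGroup.mk' (centralizer (P : Set Y)) g) ∈ Cfsg.pCore p (Y ⧸ centralizer (P : Set Y)) := by
  set C : Subgroup Y := centralizer (P : Set Y) with hC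
  set f := QuotientGroup.mk' C with hf
  have hfs : Function.Surjective f := QuotientGroup.mk'_surjective C
  set A' : Subgroup Y := (Cfsg.pCore p (Y ⧸ C)).comap f with hA'
  haveI hA'n : A'.Normal := inferInstance
  have hCA' : C ≤ A' := by
    intro x hx
    rw [hA', mem_comap]
    have : f x = 1 := (QuotientGroup.eq_one_iff x).2 hx
    rw [this]; exact one_mem _
  have hA'p : ∀ a ∈ A', ∃ k : ℕ, a ^ p ^ k ∈ C := by
    intro a ha
    obtain ⟨k, hk⟩ := (Cfsg.Agent.Solv.pCore_isPGroup (G := Y ⧸ C) p) ⟨f a, ha⟩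
    refine ⟨k, ?_⟩
    have : f a ^ p ^ k = 1 := congrArg Subtype.val hk
    rw [← map_pow] at this
    exact (QuotientGroup.eq_one_iff _).1 this
  have hmax : ∀ E : Subgroup Y, E.Normal → (∀ a ∈ E, ∃ k : ℕ, a ^ p ^ k ∈ C) → E ≤ A' := by
    intro E hE hEp
    rw [hA', ← map_le_iff_le_comap]
    apply Cfsg.Agent.Solv.le_pCore (hE.map f hfs)
    rintro ⟨_, a, ha, rfl⟩
    obtain ⟨k, hk⟩ := hEp a ha
    refine ⟨k, Subtype.ext ?_⟩
    change f a ^ p ^ k = 1
    rw [← map_pow]
    exact (QuotientGroup.eq_one_iff _).2 hk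
  have hAA' : A ≤ A' := by
    apply hmax A hAn
    intro a ha
    obtain ⟨k, hk⟩ := hA ⟨a, ha⟩
    refine ⟨k, ?_⟩
    have : a ^ p ^ k = 1 := congrArg Subtype.val hk
    rw [this]; exact one_mem _
  obtain ⟨n, c, hc⟩ := exists_pChain P A' hP hA'p
  -- [g, b] acts trivially on all factors
  have hker : ∀ b ∈ B, ⁅g, b⁆ ∈ chainKer n c hc.normal := by
    intro b hb i hi u hu
    haveI := hc.normal i
    haveI := hc.normal (i + 1)
    set h := QuotientGroup.mk' (c i) with hh
    have hhs : Function.Surjective h := QuotientGroup.mk'_surjective (c i)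
    have hk1 : ∀ x, h x = 1 ↔ x ∈ c i := fun x => QuotientGroup.eq_one_iff x
    haveI : ((c (i+1)).map h).Normal := (hc.normal (i+1)).map h hhs
    haveI : (B.map h).Normal := hBn.map h hhs
    have hcen : ∀ x ∈ A', h x ∈ centralizer (((c (i+1)).map h : Subgroup _) : Set (Y ⧸ c i)) := by
      intro x hx
      rw [mem_centralizer_iff]
      rintro _ ⟨y, hy, rfl⟩
      have h1 : ⁅y, x⁆ ∈ c i := hc.triv i hi (commutator_mem_commutator hy hx)
      have h2 := (hk1 _).2 h1
      rw [map_commutatorElement] at h2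
      exact commutatorElement_eq_one_iff_mul_comm.1 h2
    have h3 : ⁅h g, h b⁆ ∈ centralizer (((c (i+1)).map h : Subgroup _) : Set (Y ⧸ c i)) := by
      refine commutator_mem_centralizer_of_quadratic hp.out hp2 ?_ ?_ (B := B.map h) ?_ ?_ ?_ ⟨b, hb, rfl⟩
      · rintro _ ⟨x, hx, rfl⟩ _ ⟨y, hy, rfl⟩
        have h1 : ⁅x, y⁆ ∈ c i := hc.comm i hi (commutator_mem_commutator hx hy)
        have h2 := (hk1 _).2 h1
        rw [map_commutatorElement] at h2
        exact commutatorElement_eq_one_iff_mul_comm.1 h2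
      · rintro _ ⟨x, hx, rfl⟩
        rw [← map_pow]
        exact (hk1 _).2 (hc.pow i hi x hx)
      · rw [← map_commutator, map_le_iff_le_comap]
        intro x hx
        exact hcen x (hAA' (hcomm hx))
      · rintro _ ⟨x, hx, rfl⟩
        refine ⟨A.relIndex B, hcop, ?_⟩
        rw [← map_pow]
        apply hcen
        apply hAA'
        have h4 : (⟨x, hx⟩ : B) ^ (A.subgroupOf B).index ∈ A.subgroupOf B := pow_index_mem _ _
        exact h4
      · rintro _ ⟨x, hx, rfl⟩
        have hxP : x ∈ P := by rw [← hc.top]; exact hc.mono (by omega : i + 1 ≤ n) hx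
        rw [← map_commutatorElement, ← map_commutatorElement, hg x hxP, map_one]
    rw [mem_centralizer_iff] at h3
    have h5 := h3 (h u) ⟨u, hu, rfl⟩
    rw [← map_commutatorElement] at h5
    rw [← hk1, map_commutatorElement, commutatorElement_eq_one_iff_mul_comm]
    exact h5.symm
  have hgB : ∀ b ∈ B, ⁅g, b⁆ ∈ A' := by
    intro b hb
    refine hmax _ chainKer_normal ?_ (hker b hb)
    intro a ha
    exact exists_pow_mem_centralizer_of_chainKer hP hc.normal hc.zero hc.top hc.mono ha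
  obtain ⟨k, hk⟩ := exists_pow_mem_centralizer_of_quadratic hP
    ((normalizer_eq_top_iff.2 hPn).ge (mem_top g)) hg
  -- pass to Y / A'
  set e := QuotientGroup.mk' A' with he
  have hes : Function.Surjective e := QuotientGroup.mk'_surjective A'
  have hek : ∀ x, e x = 1 ↔ x ∈ A' := fun x => QuotientGroup.eq_one_iff x
  haveI : (B.map e).Normal := hBn.map e hes
  have hO : Cfsg.pCore p (Y ⧸ A') = ⊥ := by
    have h1 : (Cfsg.pCore p (Y ⧸ A')).comap e ≤ A' := by
      apply hmax _ inferInstance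
      intro a ha
      obtain ⟨j, hj⟩ := (Cfsg.Agent.Solv.pCore_isPGroup (G := Y ⧸ A') p) ⟨e a, ha⟩
      have h2 : e a ^ p ^ j = 1 := congrArg Subtype.val hj
      rw [← map_pow, hek] at h2
      obtain ⟨l, hl⟩ := hA'p _ h2
      refine ⟨j + l, ?_⟩
      rw [pow_add, pow_mul]; exact hl
    rw [eq_bot_iff]
    intro y hy
    obtain ⟨x, rfl⟩ := hes y
    rw [mem_bot, hek]
    exact h1 hy
  have hfin : e g = 1 := by
    refine eq_one_of_mem_centralizer_abelian (B.map e) ?_ ?_ hO ?_ (k := k) ?_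
    · rw [← map_commutator, Subgroup.map_eq_bot_iff, QuotientGroup.ker_mk']
      exact hcomm.trans hAA'
    · obtain ⟨j, hj⟩ := hidx
      have h1 : (B.map e).index ∣ B.index := index_map_dvd B hes
      rw [hj] at h1
      obtain ⟨l, _, hl⟩ := (Nat.dvd_prime_pow hp.out).1 h1
      exact ⟨l, hl⟩
    · rw [mem_centralizer_iff]
      rintro _ ⟨b, hb, rfl⟩
      have h1 := (hek _).2 (hgB b hb)
      rw [map_commutatorElement] at h1
      exact (commutatorElement_eq_one_iff_mul_comm.1 h1).symm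
    · rw [← map_pow, hek]; exact hCA' hk
  exact (hek g).1 hfin

/-- `p`-stability of groups with a series `p`, abelian `p'`, `p`. -/
theorem isNormalizerPStable_of_series {Y : Type u} [Group Y] [Finite Y] [hp : Fact p.Prime]
    (hp2 : p ≠ 2) (A B : Subgroup Y) [hAn : A.Normal] [hBn : B.Normal]
    (hA : IsPGroup p A) (hcop : (A.relIndex B).Coprime p) (hcomm : ⁅B, B⁆ ≤ A)
    (hidx : ∃ k, B.index = p ^ k) : Cfsg.IsNormalizerPStable p Y := by
  intro P hP g hg hgq
  set N := normalizer (P : Set Y) with hN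
  have hc : (centralizer (P : Set Y)).subgroupOf N = centralizer ((P.subgroupOf N : Subgroup N) : Set N) := by
    ext x
    rw [mem_subgroupOf, mem_centralizer_iff, mem_centralizer_iff]
    constructor
    · intro h y hy
      exact Subtype.ext (h y hy)
    · intro h y hy
      exact congrArg Subtype.val (h ⟨y, le_normalizer hy⟩ hy)
  have hPN : (P.subgroupOf N).Normal := normal_in_normalizer
  have key := mem_pCore_of_quadratic hp2 (P.subgroupOf N) (A.subgroupOf N) (B.subgroupOf N)
    (hP.comap_of_injective _ N.subtype_injective) (hA.comap_of_injective _ N.subtype_injective)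
    (g := (⟨g, hg⟩ : N)) ?_ ?_ ?_ ?_
  · have hgen : ∀ (D : Subgroup N) [D.Normal] (hD : (centralizer (P : Set Y)).subgroupOf N = D),
        QuotientGroup.mk' D (⟨g, hg⟩ : N) ∈ Cfsg.pCore p (N ⧸ D) →
        (QuotientGroup.mk (s := (centralizer (P : Set Y)).subgroupOf N) (⟨g, hg⟩ : N)) ∈
          Cfsg.pCore p (N ⧸ (centralizer (P : Set Y)).subgroupOf N) := by
      intro D _ hD h
      subst hD
      exact h
    exact hgen _ hc key
  · have h1 : (A.subgroupOf N).relIndex (B.subgroupOf N) = A.relIndex (B ⊓ N) := by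
      rw [← relIndex_subgroupOf (inf_le_right : B ⊓ N ≤ N)]
      congr 1
      ext x; simp [mem_subgroupOf]
    have h2 : A.relIndex (B ⊓ N) ∣ A.relIndex B := by
      have h3 := relIndex_dvd_index_of_normal (A.subgroupOf B) ((B ⊓ N).subgroupOf B)
      rwa [relIndex_subgroupOf inf_le_left] at h3
    rw [h1]
    exact hcop.coprime_dvd_left h2
  · rw [← map_le_map_iff_of_injective N.subtype_injective, map_commutator]
    rw [subgroupOf_map_subtype, subgroupOf_map_subtype]
    refine le_inf ?_ ?_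
    · exact (commutator_mono inf_le_left inf_le_left).trans hcomm
    · exact (commutator_mono inf_le_right inf_le_right).trans (commutator_le_self N)
  · obtain ⟨k, hk⟩ := hidx
    have h1 : (B.subgroupOf N).index ∣ B.index := relIndex_dvd_index_of_normal B N
    rw [hk] at h1
    obtain ⟨l, _, hl⟩ := (Nat.dvd_prime_pow hp.out).1 h1
    exact ⟨l, hl⟩
  · intro u hu
    apply Subtype.ext
    change ⁅g, ⁅g, (u : Y)⁆⁆ = 1
    have huP : (u : Y) ∈ P := hu
    have h1 : ⁅(u : Y), g⁆ ∈ ⁅P, zpowers g⁆ := commutator_mem_commutator huP (mem_zpowers g)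
    have h2 : ⁅g, (u : Y)⁆ ∈ ⁅P, zpowers g⁆ := by
      rw [← commutatorElement_inv]; exact inv_mem h1
    have h3 : ⁅⁅g, (u : Y)⁆, g⁆ ∈ ⁅⁅P, zpowers g⁆, zpowers g⁆ :=
      commutator_mem_commutator h2 (mem_zpowers g)
    rw [hgq, mem_bot] at h3
    rw [← commutatorElement_inv, h3, inv_one]

end Cfsg.Agent.H2
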