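import Mathlib
import Cfsg.Agent.H2.Subnormal

/-!
# Families of subnormal subgroups (S0539, S0540)
-/

set_option autoImplicit false

namespace Cfsg.Agent.H2

open Subgroup

open scoped Pointwise

theorem exists_mem_le_normalizer_sSup {G : Type*} [Group G] [Finite G] (S S₀ : Set (Subgroup G))
    (hS : ∀ U ∈ S, U.IsSubnormal) (hconj : ∀ U ∈ S, ∀ g : G, MulAut.conj g • U ∈ S) (h₀ : S₀ ⊂ S) :
    ∃ X ∈ S, X ∉ S₀ ∧ X ≤ normalizer ((sSup S₀ : Subgroup G) : Set G) := by
  have hM : (sSup S₀).IsSubnormal := H62.isSubnormal_sSup S₀ fun K hK => hS K (h₀.1 hK)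
  rcases exists_conj_le_normalizer hM with h | ⟨x, hx1, hx2⟩
  · obtain ⟨X, hX, hX0⟩ := Set.exists_of_ssubset h₀
    refine ⟨X, hX, hX0, ?_⟩
    rw [normalizer_eq_top_iff.2 h]
    exact le_top
  · have h1 : ∃ Y ∈ S₀, ¬ MulAut.conj x • Y ≤ sSup S₀ := by
      by_contra hc
      push Not at hc
      apply hx2
      rw [Subgroup.pointwise_smul_subset_iff]
      apply sSup_le
      intro Y hY
      rw [← Subgroup.pointwise_smul_subset_iff]
      exact hc Y hY
    obtain ⟨Y, hY, hYn⟩ := h1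
    refine ⟨MulAut.conj x • Y, hconj Y (h₀.1 hY) x, ?_, ?_⟩
    · intro h
      exact hYn (le_sSup h)
    · refine le_trans ?_ hx1
      rw [Subgroup.pointwise_smul_le_pointwise_smul_iff]
      exact le_sSup hY

/-- One step of the uniqueness argument. -/
theorem zipper_family_step {G : Type*} [Group G] [Finite G] (A : Subgroup G)
    (U : Set (Subgroup G)) (S : Subgroup G → Set (Subgroup G))
    (hS : ∀ V B : Subgroup G, B ∈ S V ↔
      (∃ g : G, B = MulAut.conj g • A) ∧ B ≤ V ∧ (B.subgroupOf V).IsSubnormal)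
    (h2 : ∀ V ∈ U, ∀ W ∈ U, ∀ B ∈ S W, B ≤ V → B ∈ S V)
    (M₁ M₂ M₃ : Subgroup G) (hM₁ : Maximal (· ∈ U) M₁) (hM₃ : Maximal (· ∈ U) M₃)
    (hmax : ∀ M, Maximal (· ∈ U) M → M₁ ≠ M → (S M₁ ∩ S M).ncard ≤ (S M₁ ∩ S M₂).ncard)
    (hN : normalizer ((sSup (S M₁ ∩ S M₂) : Subgroup G) : Set G) ≤ M₃) : M₁ = M₃ := by
  by_cases hsub : S M₁ ⊆ S M₂
  · rw [Set.inter_eq_left.2 hsub] at hN
    have h3 : M₁ ≤ normalizer ((sSup (S M₁) : Subgroup G) : Set G) := by
      intro m hm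
      apply mem_normalizer_of_conj_smul_le
      rw [Subgroup.pointwise_smul_subset_iff]
      apply sSup_le
      intro B hB
      rw [← Subgroup.pointwise_smul_subset_iff]
      apply le_sSup
      rw [hS] at hB ⊢
      obtain ⟨⟨g, rfl⟩, hB1, hB2⟩ := hB
      refine ⟨⟨m * g, by rw [map_mul, mul_smul]⟩, ?_, ?_⟩
      · rw [conj_smul_le_iff]
        intro x hx
        exact mul_mem (mul_mem hm (hB1 hx)) (inv_mem hm)
      · apply isSubnormal_conj_subgroupOf
        have : MulAut.conj m⁻¹ • M₁ = M₁ := by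
          rw [← mem_normalizer_iff_conj_smul_eq]
          exact le_normalizer (inv_mem hm)
        rw [this]
        exact hB2
    exact hM₁.eq_of_le hM₃.prop (h3.trans hN)
  · by_contra hne
    -- apply the previous lemma inside `M₁`
    have hconv : ∀ T : Set (Subgroup G), (∀ B ∈ T, B ≤ M₁) →
        (sSup ((fun B : Subgroup G => B.subgroupOf M₁) '' T)).map M₁.subtype = sSup T := by
      intro T hT
      rw [sSup_eq_iSup', Subgroup.map_iSup, sSup_eq_iSup']
      apply le_antisymm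
      · apply iSup_le
        rintro ⟨_, B, hB, rfl⟩
        rw [subgroupOf_map_subtype]
        exact le_trans inf_le_left (le_iSup (fun a : T => (a : Subgroup G)) ⟨B, hB⟩)
      · apply iSup_le
        rintro ⟨B, hB⟩
        refine le_trans ?_ (le_iSup _ (⟨_, B, hB, rfl⟩ :
          ((fun B : Subgroup G => B.subgroupOf M₁) '' T : Set (Subgroup M₁))))
        rw [subgroupOf_map_subtype]
        exact le_inf le_rfl (hT B hB)
    have hinj : ∀ B C : Subgroup G, B ≤ M₁ → C ≤ M₁ → B.subgroupOf M₁ = C.subgroupOf M₁ → B = C := by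
      intro B C hB hC h
      have := congrArg (Subgroup.map M₁.subtype) h
      rwa [subgroupOf_map_subtype, subgroupOf_map_subtype, inf_eq_left.2 hB, inf_eq_left.2 hC] at this
    have hle : ∀ B ∈ S M₁, B ≤ M₁ := fun B hB => ((hS _ _).1 hB).2.1
    obtain ⟨X', ⟨B, hB, rfl⟩, hX0, hXn⟩ := exists_mem_le_normalizer_sSup
      ((fun B : Subgroup G => B.subgroupOf M₁) '' (S M₁))
      ((fun B : Subgroup G => B.subgroupOf M₁) '' (S M₁ ∩ S M₂)) (by
        rintro _ ⟨B, hB, rfl⟩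
        exact ((hS _ _).1 hB).2.2) (by
        rintro _ ⟨B, hB, rfl⟩ m
        refine ⟨MulAut.conj (m : G) • B, ?_, ?_⟩
        · rw [hS] at hB ⊢
          obtain ⟨⟨g, rfl⟩, hB1, hB2⟩ := hB
          refine ⟨⟨m * g, by rw [map_mul, mul_smul]⟩, ?_, ?_⟩
          · rw [conj_smul_le_iff]
            intro x hx
            exact mul_mem (mul_mem m.2 (hB1 hx)) (inv_mem m.2)
          · apply isSubnormal_conj_subgroupOf
            have : MulAut.conj (m : G)⁻¹ • M₁ = M₁ := by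
              rw [← mem_normalizer_iff_conj_smul_eq]
              exact le_normalizer (inv_mem m.2)
            rw [this]
            exact hB2
        · ext y
          simp only []
          rw [mem_subgroupOf, mem_conj_smul, mem_conj_smul, mem_subgroupOf]
          rfl) (by
        rw [Set.ssubset_iff_subset_ne]
        refine ⟨Set.image_mono Set.inter_subset_left, ?_⟩
        intro h
        apply hsub
        intro B hB
        have h4 : B.subgroupOf M₁ ∈ (fun B : Subgroup G => B.subgroupOf M₁) '' (S M₁ ∩ S M₂) := by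
          rw [h]; exact ⟨B, hB, rfl⟩
        obtain ⟨C, hC, hCB⟩ := h4
        have := hinj C B (hle C hC.1) (hle B hB) hCB
        rw [← this]; exact hC.2)
    have hBn : B ≤ normalizer ((sSup (S M₁ ∩ S M₂) : Subgroup G) : Set G) := by
      have h5 := Subgroup.map_mono (f := M₁.subtype) hXn
      have h6 := le_normalizer_map (H := sSup ((fun B : Subgroup G => B.subgroupOf M₁) '' (S M₁ ∩ S M₂)))
        M₁.subtype
      rw [hconv _ (fun B hB => hle B hB.1)] at h6
      simp only [] at h5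
      rw [subgroupOf_map_subtype, inf_eq_left.2 (hle B hB)] at h5
      exact h5.trans h6
    have hB₀ : B ∉ S M₁ ∩ S M₂ := fun h => hX0 ⟨B, h, rfl⟩
    have hB3 : B ∈ S M₃ := h2 M₃ hM₃.prop M₁ hM₁.prop B hB (hBn.trans hN)
    have hS3 : S M₁ ∩ S M₂ ⊆ S M₁ ∩ S M₃ := by
      intro C hC
      refine ⟨hC.1, h2 M₃ hM₃.prop M₁ hM₁.prop C hC.1 ?_⟩
      exact (le_sSup hC).trans (le_normalizer.trans hN)
    have hlt : (S M₁ ∩ S M₂).ncard < (S M₁ ∩ S M₃).ncard := by
      apply Set.ncard_lt_ncard _ (Set.toFinite _)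
      rw [Set.ssubset_iff_of_subset hS3]
      exact ⟨B, ⟨hB, hB3⟩, hB₀⟩
    exact absurd (hmax M₃ hM₃ hne) (not_le.2 hlt)

theorem zipper_family {G : Type*} [Group G] [Finite G] (A : Subgroup G) (U : Set (Subgroup G))
    (hU : U.Nonempty) (S : Subgroup G → Set (Subgroup G))
    (hS : ∀ V B : Subgroup G, B ∈ S V ↔
      (∃ g : G, B = MulAut.conj g • A) ∧ B ≤ V ∧ (B.subgroupOf V).IsSubnormal)
    (h2 : ∀ V ∈ U, ∀ W ∈ U, ∀ B ∈ S W, B ≤ V → B ∈ S V)
    (h3 : ∀ V ∈ U, ∀ W ∈ U, ∃ X ∈ U, normalizer ((sSup (S V ∩ S W) : Subgroup G) : Set G) ≤ X) :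
    ∃ M ∈ U, ∀ V ∈ U, V ≤ M := by
  have hfin : U.Finite := Set.toFinite U
  have hex : ∀ V ∈ U, ∃ M, V ≤ M ∧ Maximal (· ∈ U) M := fun V hV => hfin.exists_le_maximal hV
  obtain ⟨V₀, hV₀⟩ := hU
  obtain ⟨M, hVM, hM⟩ := hex V₀ hV₀
  by_cases hP : ∃ q : Subgroup G × Subgroup G, Maximal (· ∈ U) q.1 ∧ Maximal (· ∈ U) q.2 ∧ q.1 ≠ q.2
  · exfalso
    obtain ⟨⟨M₁, M₂⟩, ⟨hm1, hm2, hne⟩, hmax⟩ := Set.exists_max_image
      {q : Subgroup G × Subgroup G | Maximal (· ∈ U) q.1 ∧ Maximal (· ∈ U) q.2 ∧ q.1 ≠ q.2}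
      (fun q => (S q.1 ∩ S q.2).ncard) (Set.toFinite _) hP
    obtain ⟨X, hXU, hX⟩ := h3 M₁ hm1.prop M₂ hm2.prop
    obtain ⟨M₃, hXM, hM₃⟩ := hex X hXU
    have e1 := zipper_family_step A U S hS h2 M₁ M₂ M₃ hm1 hM₃
      (fun M hM hne' => hmax (M₁, M) ⟨hm1, hM, hne'⟩) (hX.trans hXM)
    have e2 := zipper_family_step A U S hS h2 M₂ M₁ M₃ hm2 hM₃
      (fun M hM hne' => by
        rw [Set.inter_comm (S M₂) (S M₁)]
        exact hmax (M₂, M) ⟨hm2, hM, hne'⟩) (by
        rw [Set.inter_comm]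
        exact hX.trans hXM)
    exact hne (e1.trans e2.symm)
  · push Not at hP
    refine ⟨M, hM.prop, ?_⟩
    intro V hV
    obtain ⟨M', hVM', hM'⟩ := hex V hV
    have := hP (M, M') hM hM'
    simp only at this
    rw [this]
    exact hVM'

end Cfsg.Agent.H2
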